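import Mathlib
import Cfsg.Agent.MinIndexPSU.Basic

/-!
Unitary spaces over the field with four elements: the field, numbers of isotropic vectors, isotropic
vectors with prescribed products, products of two transvections.
-/

set_option autoImplicit false
set_option linter.unusedSectionVars false

open scoped Classical

namespace CfsgLib.MinIndexUTwo

open Matrix CfsgLib.Unitary CfsgLib.AutPSU CfsgLib.AutPSU.Frame CfsgLib.SchurClassical.Un

variable {F : Type*} [Field F] [Fintype F] (hF : Fintype.card F = 2 ^ 2)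

include hF

theorem two_eq_zero : (2 : F) = 0 := by
  have h : ((Fintype.card F : ℕ) : F) = 0 := Nat.cast_card_eq_zero F
  rw [hF] at h
  push_cast at h
  exact eq_zero_of_pow_eq_zero (show (2 : F) ^ 2 = 0 by linear_combination h)

theorem add_self (x : F) : x + x = 0 := by linear_combination x * two_eq_zero hF

theorem neg_eq (x : F) : -x = x := by linear_combination (-x) * two_eq_zero hF

theorem vec_add_self {k : ℕ} (x : Fin k → F) : x + x = 0 := funext fun i => add_self hF (x i)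

theorem pow_four (x : F) : x ^ 4 = x := by
  have h := FiniteField.pow_card x
  rw [hF] at h
  linear_combination h

theorem cube_eq_one {x : F} (hx : x ≠ 0) : x ^ 3 = 1 := by
  have h := FiniteField.pow_card_sub_one_eq_one x hx
  rw [hF] at h
  simpa using h

theorem fixed_iff {x : F} : x ^ 2 = x ↔ x = 0 ∨ x = 1 := by
  rw [sq, ← sub_eq_zero, show x * x - x = x * (x - 1) by ring, mul_eq_zero, sub_eq_zero]

theorem trace_zero_iff {x : F} : x + x ^ 2 = 0 ↔ x = 0 ∨ x = 1 := by
  rw [← fixed_iff hF]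
  exact ⟨fun h => by linear_combination h - x * two_eq_zero hF, fun h => by
    linear_combination h + x * two_eq_zero hF⟩

theorem exists_omega : ∃ w : F, w ^ 2 + w + 1 = 0 := by
  obtain ⟨w, hw, hw1⟩ : ∃ w : F, w ≠ 0 ∧ w ≠ 1 := by
    by_contra h
    push Not at h
    have h2 : ∀ x : F, x ∈ ({0, 1} : Finset F) := fun x => by
      by_cases hx : x = 0
      · simp [hx]
      · simp [h x hx]
    have := (Finset.card_le_card (fun x _ => h2 x : (Finset.univ : Finset F) ⊆ {0, 1})).trans Finset.card_le_two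
    rw [Finset.card_univ, hF] at this
    omega
  refine ⟨w, ?_⟩
  have h3 := cube_eq_one hF hw
  have : (w - 1) * (w ^ 2 + w + 1) = 0 := by linear_combination h3
  exact (mul_eq_zero.1 this).resolve_left (sub_ne_zero.2 hw1)

theorem herm_self_cases {k : ℕ} (x : Fin k → F) :
    Cfsg.hermForm k F 2 x x = 0 ∨ Cfsg.hermForm k F 2 x x = 1 :=
  (fixed_iff hF).1 (herm_self_fixed hF x)

omit hF in
/-- The number of non-zero isotropic vectors. -/
noncomputable def isoN (F : Type*) [Field F] (k : ℕ) : ℕ :=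
  Nat.card {x : Fin k → F // Cfsg.hermForm k F 2 x x = 0 ∧ x ≠ 0}

theorem isoN_add_one (k : ℕ) : isoN F k + 1 = normCount k 2 (0 : F) := by
  rw [isoN, normCount, Nat.card_eq_fintype_card, Nat.card_eq_fintype_card, Fintype.card_subtype,
    Fintype.card_subtype]
  have hset : (Finset.univ.filter fun x : Fin k → F => Cfsg.hermForm k F 2 x x = 0 ∧ x ≠ 0) =
      (Finset.univ.filter fun x : Fin k → F => Cfsg.hermForm k F 2 x x = 0).erase 0 := by
    ext x; simp [and_comm]
  rw [hset]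
  exact Finset.card_erase_add_one (by simp [herm_zero_left])

theorem isoN_int (k : ℕ) :
    2 * ((isoN F k : ℤ) + 1) = (2 : ℤ) ^ k * ((2 : ℤ) ^ k + (-1) ^ k) := by
  have h := normCount_zero_eq hF k
  rw [← isoN_add_one hF] at h
  push_cast at h
  linear_combination h

theorem isoN_even {k a : ℕ} (hk : Even k) (ha : 2 ^ k = 2 * a) :
    (isoN F k : ℤ) = (2 * (a : ℤ) - 1) * ((a : ℤ) + 1) := by
  have h := isoN_int hF k
  have ha' : (2 : ℤ) ^ k = 2 * (a : ℤ) := by exact_mod_cast ha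
  rw [hk.neg_one_pow, ha'] at h
  nlinarith [h]

theorem isoN_odd {k a : ℕ} (hk : Odd k) (ha : 2 ^ k = 2 * a) :
    (isoN F k : ℤ) = (2 * (a : ℤ) + 1) * ((a : ℤ) - 1) := by
  have h := isoN_int hF k
  have ha' : (2 : ℤ) ^ k = 2 * (a : ℤ) := by exact_mod_cast ha
  rw [hk.neg_one_pow, ha'] at h
  nlinarith [h]

theorem isoN_one : isoN F 1 = 0 := by
  have h := isoN_odd hF (k := 1) (a := 1) odd_one rfl
  simpa using h

/-- A non-zero vector of a space of dimension at least two has product one with an isotropic vector. -/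
theorem exists_iso_one {k : ℕ} (hk : 2 ≤ k) {x : Fin k → F} (hx : x ≠ 0) :
    ∃ a, Cfsg.hermForm k F 2 a a = 0 ∧ Cfsg.hermForm k F 2 x a = 1 := by
  obtain ⟨j, rfl⟩ : ∃ j, k = j + 2 := ⟨k - 2, by omega⟩
  suffices h : ∃ a, Cfsg.hermForm (j + 2) F 2 a a = 0 ∧ Cfsg.hermForm (j + 2) F 2 x a ≠ 0 by
    obtain ⟨a, ha, hxa⟩ := h
    refine ⟨((Cfsg.hermForm (j + 2) F 2 x a) ^ 2)⁻¹ • a, ?_, ?_⟩
    · rw [herm_self_smul, ha, mul_zero]
    · rw [herm_smul_right, inv_pow, pow_q_q hF, inv_mul_cancel₀ hxa]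
  obtain ⟨T⟩ := exists_frame (m := j) hF
  by_cases h1 : Cfsg.hermForm (j + 2) F 2 x T.e = 0
  swap
  · exact ⟨T.e, T.he, h1⟩
  by_cases h2 : Cfsg.hermForm (j + 2) F 2 x T.f = 0
  swap
  · exact ⟨T.f, T.hf, h2⟩
  have hxw : x = eta (proj x) := by
    conv_lhs => rw [T.decomp hF x, h1, h2]
    simp
  have hw : proj x ≠ 0 := fun h => hx (by rw [hxw, h, eta_zero])
  obtain ⟨w, hw'⟩ : ∃ w, Cfsg.hermForm j F 2 (proj x) w ≠ 0 := by
    by_contra h
    push Not at h
    exact hw (herm_nondeg hF _ h)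
  obtain ⟨c, hc⟩ := exists_hcond hF w
  refine ⟨c • T.e + T.f + eta w, ?_, ?_⟩
  · unfold HCond at hc
    simp only [herm_add_left, herm_add_right hF, herm_smul_left, herm_smul_right, T.he, T.hf, T.hef,
      T.hfe hF, T.ew, T.fw, T.we hF, T.wf hF, herm_eta hF]
    linear_combination hc
  · rw [hxw]
    simpa [herm_add_right hF, herm_smul_right, T.ew, T.fw, herm_eta hF] using hw'

/-- An isotropic pair with product one. -/
theorem exists_pair {k : ℕ} (hk : 2 ≤ k) :
    ∃ a b, Cfsg.hermForm k F 2 a a = 0 ∧ Cfsg.hermForm k F 2 b b = 0 ∧ Cfsg.hermForm k F 2 a b = 1 := by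
  obtain ⟨j, rfl⟩ : ∃ j, k = j + 2 := ⟨k - 2, by omega⟩
  obtain ⟨T⟩ := exists_frame (m := j) hF
  exact ⟨T.e, T.f, T.he, T.hf, T.hef⟩

omit hF in
theorem one_trace (hF : Fintype.card F = 2 ^ 2) : (1 : F) + 1 ^ 2 = 0 := by
  rw [one_pow]; exact add_self hF 1

/-- The transvection with an isotropic centre. -/
def tv {k : ℕ} (v : Fin k → F) (hv : Cfsg.hermForm k F 2 v v = 0) : ↥(Cfsg.SU k F 2) :=
  transvSU hF v 1 hv (one_trace hF)

theorem sv_tv {k : ℕ} (v : Fin k → F) (hv : Cfsg.hermForm k F 2 v v = 0) (x : Fin k → F) :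
    sv (tv hF v hv) x = x + Cfsg.hermForm k F 2 x v • v := by
  rw [tv, sv_transvSU, one_mul]

theorem tv_conj {k : ℕ} (A : ↥(Cfsg.SU k F 2)) (v : Fin k → F) (hv : Cfsg.hermForm k F 2 v v = 0) :
    A * tv hF v hv * A⁻¹ = tv hF (sv A v) (herm_sv_self_eq_zero A hv) :=
  conj_transvSU hF A hv _

theorem tv_congr {k : ℕ} {v w : Fin k → F} (hv : Cfsg.hermForm k F 2 v v = 0)
    (hw : Cfsg.hermForm k F 2 w w = 0) (h : v = w) : tv hF v hv = tv hF w hw := by subst h; rfl

theorem tv_smul {k : ℕ} {v : Fin k → F} (hv : Cfsg.hermForm k F 2 v v = 0) {l : F} (hl : l ≠ 0)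
    (hlv : Cfsg.hermForm k F 2 (l • v) (l • v) = 0) : tv hF (l • v) hlv = tv hF v hv := by
  refine sv_ext fun x => ?_
  rw [sv_tv, sv_tv, herm_smul_right, smul_smul]
  congr 2
  linear_combination Cfsg.hermForm k F 2 x v * cube_eq_one hF hl

theorem tv_mul_self {k : ℕ} (v : Fin k → F) (hv : Cfsg.hermForm k F 2 v v = 0) :
    tv hF v hv * tv hF v hv = 1 := by
  refine sv_ext fun x => ?_
  rw [sv_mul, sv_tv, sv_tv, sv_one, herm_add_left, herm_smul_left, hv, mul_zero, add_zero, add_assoc,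
    vec_add_self hF, add_zero]

theorem eq_tv {k : ℕ} {v : Fin k → F} {c : F} (hv : Cfsg.hermForm k F 2 v v = 0) (hc : c + c ^ 2 = 0) :
    transvSU hF v c hv hc = 1 ∨ transvSU hF v c hv hc = tv hF v hv := by
  rcases (trace_zero_iff hF).1 hc with rfl | rfl
  · exact Or.inl (transvSU_eq_one hF hv hc (Or.inl rfl))
  · exact Or.inr rfl

/-- Two transvections with non-orthogonal centres generate a group in which their product has order three. -/
theorem tv_mul_tv_cube {k : ℕ} {a b : Fin k → F} (ha : Cfsg.hermForm k F 2 a a = 0)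
    (hb : Cfsg.hermForm k F 2 b b = 0) (hab : Cfsg.hermForm k F 2 a b ≠ 0) :
    (tv hF a ha * tv hF b hb) ^ 3 = 1 := by
  have hi : ∀ v : Fin k → F, ∀ hv, (tv hF v hv)⁻¹ = tv hF v hv := fun v hv =>
    inv_eq_of_mul_eq_one_right (tv_mul_self hF v hv)
  have e1 := tv_conj hF (tv hF a ha) b hb
  have e2 := tv_conj hF (tv hF b hb) a ha
  rw [hi] at e1 e2
  have hc := cube_eq_one hF hab
  have hsv : sv (tv hF b hb) a = Cfsg.hermForm k F 2 a b • sv (tv hF a ha) b := by
    rw [sv_tv, sv_tv, smul_add, smul_smul, herm_conj hF a b, ← pow_succ', hc, one_smul, add_comm]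
  have e3 : tv hF b hb * tv hF a ha * tv hF b hb = tv hF a ha * tv hF b hb * tv hF a ha := by
    rw [e1, e2]
    have h' : Cfsg.hermForm k F 2 (Cfsg.hermForm k F 2 a b • sv (tv hF a ha) b)
        (Cfsg.hermForm k F 2 a b • sv (tv hF a ha) b) = 0 := by
      rw [herm_self_smul, sv_herm, hb, mul_zero]
    rw [tv_congr hF _ h' hsv, tv_smul hF _ hab]
  calc (tv hF a ha * tv hF b hb) ^ 3
      = tv hF a ha * tv hF b hb * tv hF a ha * (tv hF b hb * tv hF a ha * tv hF b hb) := by
        simp only [pow_succ, pow_zero, one_mul, mul_assoc]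
    _ = (tv hF a ha * tv hF b hb * tv hF a ha) * (tv hF a ha * tv hF b hb * tv hF a ha) := by rw [e3]
    _ = tv hF a ha * tv hF b hb * (tv hF a ha * tv hF a ha) * tv hF b hb * tv hF a ha := by group
    _ = 1 := by rw [tv_mul_self, mul_one, mul_assoc (tv hF a ha), tv_mul_self, mul_one, tv_mul_self]

/-- Two transvections with centres on one line through `e` in its perp multiply to a radical element. -/
theorem tv_mul_tv_heis {m : ℕ} (T : Frame F m 2) {a : Fin m → F} (ha : Cfsg.hermForm m F 2 a a = 0) (l u : F)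
    (hl : Cfsg.hermForm (m + 2) F 2 (eta a + l • T.e) (eta a + l • T.e) = 0)
    (hu : Cfsg.hermForm (m + 2) F 2 (eta a + u • T.e) (eta a + u • T.e) = 0) :
    ∃ hc : HCond 2 ((l + u) ^ 2 • a) (l ^ 3 + u ^ 3),
      tv hF (eta a + l • T.e) hl * tv hF (eta a + u • T.e) hu = T.heis hF ((l + u) ^ 2 • a) (l ^ 3 + u ^ 3) hc := by
  have hl3 : (l ^ 3) ^ 2 = l ^ 3 := norm_pow_q hF l
  have hu3 : (u ^ 3) ^ 2 = u ^ 3 := norm_pow_q hF u
  have hc : HCond 2 ((l + u) ^ 2 • a) (l ^ 3 + u ^ 3) := by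
    unfold HCond
    rw [herm_self_smul, ha, mul_zero, add_zero]
    linear_combination hl3 + hu3 + (l ^ 3 * u ^ 3 + l ^ 3 + u ^ 3) * two_eq_zero hF
  refine ⟨hc, sv_ext fun x => ?_⟩
  rw [sv_mul, sv_tv, sv_tv, T.sv_heis hF, heisLin_apply, eta_smul]
  simp only [herm_add_left, herm_add_right hF, herm_smul_left, herm_smul_right, T.he, T.ew, T.we hF,
    herm_eta hF, ha]
  match_scalars
  · ring
  · linear_combination (Cfsg.hermForm (m + 2) F 2 x (eta a) - l * u * Cfsg.hermForm (m + 2) F 2 x T.e) * two_eq_zero hF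
  · linear_combination (Cfsg.hermForm (m + 2) F 2 x (eta a)) * (pow_four hF l + pow_four hF u) +
      (Cfsg.hermForm (m + 2) F 2 x (eta a)) * (l + u + 2 * l ^ 3 * u + 3 * l ^ 2 * u ^ 2 + 2 * l * u ^ 3) *
        two_eq_zero hF

theorem norm_eq_one {k : ℕ} {x : Fin k → F} (hx : Cfsg.hermForm k F 2 x x ≠ 0) :
    Cfsg.hermForm k F 2 x x = 1 := (herm_self_cases hF x).resolve_left hx

end CfsgLib.MinIndexUTwo
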