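import Mathlib
import Cfsg.Agent.MinIndexUTwo.Basic

/-!
At a point with trivial radical and full Levi image, every totally isotropic line through the point
carries the centre of a transvection of the subgroup.
-/

set_option autoImplicit false
set_option linter.unusedSectionVars false

open scoped Classical

namespace CfsgLib.MinIndexUTwo

open Matrix CfsgLib.Unitary CfsgLib.AutPSU CfsgLib.AutPSU.Frame CfsgLib.SchurClassical.Un CfsgLib.MinIndexPSU

variable {F : Type*} [Field F] [Fintype F] (hF : Fintype.card F = 2 ^ 2)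

include hF

/-- `v` is the centre of a transvection of `K`. -/
def IsGood {k : ℕ} (K : Subgroup ↥(Cfsg.SU k F 2)) (v : Fin k → F) : Prop :=
  ∀ hv : Cfsg.hermForm k F 2 v v = 0, tv hF v hv ∈ K

/-- At the other isotropic vectors `K` meets the radical trivially. -/
def TrivRad {k : ℕ} (K : Subgroup ↥(Cfsg.SU k F 2)) : Prop :=
  ∀ v : Fin k → F, v ≠ 0 → Cfsg.hermForm k F 2 v v = 0 → ¬ IsGood hF K v → ∀ g ∈ K, g ∈ qAt v → g = 1

theorem isGood_conjSub {k : ℕ} {K : Subgroup ↥(Cfsg.SU k F 2)} (E : ↥(Cfsg.SU k F 2)) (v : Fin k → F) :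
    IsGood hF (conjSub E K) v ↔ IsGood hF K (sv E⁻¹ v) := by
  constructor
  · intro h hv
    have hv' : Cfsg.hermForm k F 2 v v = 0 := by rwa [sv_herm] at hv
    have := mem_conjSub.1 (h hv')
    rwa [show E⁻¹ * tv hF v hv' * E = E⁻¹ * tv hF v hv' * (E⁻¹)⁻¹ by rw [inv_inv], tv_conj] at this
  · intro h hv
    rw [mem_conjSub, show E⁻¹ * tv hF v hv * E = E⁻¹ * tv hF v hv * (E⁻¹)⁻¹ by rw [inv_inv], tv_conj]
    exact h _

theorem trivRad_conjSub {k : ℕ} {K : Subgroup ↥(Cfsg.SU k F 2)} (h : TrivRad hF K) (E : ↥(Cfsg.SU k F 2)) :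
    TrivRad hF (conjSub E K) := by
  intro v hv0 hv hb g hg hgq
  have h1 := conj_mem_qAt E⁻¹ hgq
  rw [inv_inv] at h1
  have h2 := h (sv E⁻¹ v) (fun h0 => hv0 (by rw [← sv_sv_inv E v, h0]; exact Matrix.mulVec_zero _))
    (by rw [sv_herm, hv]) (fun hgood => hb ((isGood_conjSub hF E v).2 hgood)) _ (mem_conjSub.1 hg) h1
  rwa [mul_assoc, inv_mul_eq_one, eq_comm, mul_eq_right] at h2

/-- An element of order three fixing only zero, with a given isotropic vector as an eigenvector. -/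
theorem exists_free_torus {m : ℕ} (hm : 4 ≤ m) (hm3 : m % 3 = 1) {a : Fin m → F}
    (ha : Cfsg.hermForm m F 2 a a = 0) (ha0 : a ≠ 0) :
    ∃ P : ↥(Cfsg.SU m F 2), P ^ 3 = 1 ∧ (∀ w, sv P w = w → w = 0) ∧ ∃ l : F, l ≠ 0 ∧ sv P a = l • a := by
  obtain ⟨w, hw⟩ := exists_omega hF
  have hw3 : w ^ 3 = 1 := by linear_combination (w - 1) * hw
  have hw0 : w ≠ 0 := fun h => by simp [h] at hw3
  have hw1 : w ≠ 1 := fun h => by
    rw [h] at hw
    exact one_ne_zero (by linear_combination hw - two_eq_zero hF)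
  obtain ⟨p, p', hp, hp', hpp, hpa, hp'a⟩ : ∃ p p', Cfsg.hermForm m F 2 p p = 1 ∧
      Cfsg.hermForm m F 2 p' p' = 1 ∧ Cfsg.hermForm m F 2 p p' = 0 ∧ Cfsg.hermForm m F 2 a p = 0 ∧
      Cfsg.hermForm m F 2 a p' = 0 := by
    obtain ⟨j, rfl⟩ : ∃ j, m = j + 2 := ⟨m - 2, by omega⟩
    obtain ⟨T⟩ := exists_frame (m := j) hF
    obtain ⟨A, rfl⟩ := exists_SU_map_isotropic hF (by omega) (T.e_ne_zero hF) ha0 T.he ha
    refine ⟨sv A (eta (Pi.single ⟨0, by omega⟩ 1)), sv A (eta (Pi.single ⟨1, by omega⟩ 1)), ?_, ?_, ?_, ?_, ?_⟩ <;>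
      simp [sv_herm, herm_eta hF, herm_single_single hF, T.we hF]
  have hp'p := herm_eq_zero_comm hF hpp
  let R : Matrix (Fin m) (Fin m) F := rankOne 2 ((w - 1) • p) p * rankOne 2 ((w - 1) • p') p'
  have hR : ∀ x, R *ᵥ x = x + ((w - 1) * Cfsg.hermForm m F 2 x p) • p + ((w - 1) * Cfsg.hermForm m F 2 x p') • p' := by
    intro x
    rw [← Matrix.mulVec_mulVec, rankOne_mulVec, rankOne_mulVec, herm_add_left, herm_smul_left, herm_smul_left,
      hp'p]
    module
  have hdet : (w • R).det = 1 := by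
    rw [Matrix.det_smul, Matrix.det_mul, det_rankOne, det_rankOne, herm_smul_left, herm_smul_left, hp, hp',
      Fintype.card_fin, mul_one, add_sub_cancel, ← Nat.div_add_mod m 3, hm3, pow_succ, pow_mul, hw3, one_pow]
    linear_combination hw3
  have hwn : w ^ (2 + 1) = 1 := hw3
  have hpres : ∀ x y, Cfsg.hermForm m F 2 ((w • R) *ᵥ x) ((w • R) *ᵥ y) = Cfsg.hermForm m F 2 x y := by
    intro x y
    rw [Matrix.smul_mulVec, Matrix.smul_mulVec, herm_smul_left, herm_smul_right, ← Matrix.mulVec_mulVec,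
      ← Matrix.mulVec_mulVec, quasiReflection_preserves hF hp hwn, quasiReflection_preserves hF hp' hwn]
    linear_combination Cfsg.hermForm m F 2 x y * hw3
  let P : ↥(Cfsg.SU m F 2) := ⟨⟨w • R, hdet⟩, mem_SU.2 hpres⟩
  have hP : ∀ x, sv P x = w • (x + ((w - 1) * Cfsg.hermForm m F 2 x p) • p +
      ((w - 1) * Cfsg.hermForm m F 2 x p') • p') := fun x => by
    show (w • R) *ᵥ x = _
    rw [Matrix.smul_mulVec, hR]
  refine ⟨P, sv_ext fun x => ?_, fun x hx => ?_, w, hw0, ?_⟩
  · rw [pow_succ, pow_succ, pow_one, sv_mul, sv_mul, sv_one, hP x, hP, hP]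
    simp only [herm_add_left, herm_smul_left, hp, hp', hpp, hp'p, mul_one, mul_zero, add_zero]
    match_scalars
    · linear_combination hw3
    · linear_combination (Cfsg.hermForm m F 2 x p * w ^ 3) * hw3
    · linear_combination (Cfsg.hermForm m F 2 x p' * w ^ 3) * hw3
  · rw [hP] at hx
    have h1 := congrArg (fun z => Cfsg.hermForm m F 2 z p) hx
    have h2 := congrArg (fun z => Cfsg.hermForm m F 2 z p') hx
    simp only [herm_add_left, herm_smul_left, hp, hp', hpp, hp'p, mul_one, mul_zero, add_zero] at h1 h2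
    have e1 : (w ^ 2 - 1) * Cfsg.hermForm m F 2 x p = 0 := by linear_combination h1
    have e2 : (w ^ 2 - 1) * Cfsg.hermForm m F 2 x p' = 0 := by linear_combination h2
    have hw21 : w ^ 2 - 1 ≠ 0 := fun h => hw1 (by linear_combination hw3 - w * h)
    rw [(mul_eq_zero.1 e1).resolve_left hw21, (mul_eq_zero.1 e2).resolve_left hw21, mul_zero, zero_smul,
      zero_smul, add_zero, add_zero] at hx
    exact (smul_eq_zero.1 (show (w - 1) • x = 0 by rw [sub_smul, hx, one_smul, sub_self])).resolve_left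
      (sub_ne_zero.2 hw1)
  · rw [hP, hpa, hp'a, mul_zero, zero_smul, zero_smul, add_zero, add_zero]

variable {m : ℕ} (T : Frame F m 2) {K : Subgroup ↥(Cfsg.SU (m + 2) F 2)}

theorem emb_tv {a : Fin m → F} (ha : Cfsg.hermForm m F 2 a a = 0)
    (he : Cfsg.hermForm (m + 2) F 2 (eta a) (eta a) = 0) :
    emb hF T (tv hF a ha) = tv hF (eta a) he := by
  refine T.sv_ext_frame hF ?_ ?_ fun x => ?_
  · rw [emb_e, sv_tv, T.we hF, zero_smul, add_zero]
  · rw [emb_f, sv_tv, T.wf hF, zero_smul, add_zero]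
  · rw [emb_eta, sv_tv, sv_tv, herm_eta hF, eta_add, eta_smul]

theorem tv_e_eq (h0 : HCond 2 (0 : Fin m → F) 1) : T.heis hF 0 1 h0 = tv hF T.e T.he :=
  (T.transvSU_e_eq hF (one_trace hF) h0).symm

/-- Every totally isotropic line through the vector of the frame carries a centre. -/
theorem exists_good_on_line (hm : 4 ≤ m) (hm3 : m % 3 = 1) (hK : TrivRad hF K) (he : ¬ IsGood hF K T.e)
    (hfull : kbar hF T K = ⊤) {a : Fin m → F} (ha : Cfsg.hermForm m F 2 a a = 0) (ha0 : a ≠ 0) :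
    ∃ c : F, IsGood hF K (eta a + c • T.e) := by
  obtain ⟨P, hP3, hPfix, l, hl, hPa⟩ := exists_free_torus hF hm hm3 ha ha0
  obtain ⟨w, c, hc, hk⟩ := (mem_kbar hF T).1 (hfull ▸ Subgroup.mem_top P)
  -- move the lift of `P` to `P` itself
  obtain ⟨u, hu⟩ : ∃ u, u - sv P u = -w := by
    have hinj : Function.Injective (fun u => u - sv P u) := fun x y h => sub_eq_zero.1 (hPfix _ (by
      have h' : x - sv P x = y - sv P y := h
      rw [sv_sub]; linear_combination (norm := module) -h'))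
    exact (Finite.injective_iff_surjective.1 hinj) _
  obtain ⟨cu, hcu⟩ := exists_hcond hF u
  set E1 := T.heis hF u cu hcu
  set K' := conjSub E1 K
  have hE1e : sv E1⁻¹ T.e = T.e := by
    conv_lhs => rw [← (show sv E1 T.e = T.e by rw [T.sv_heis hF, T.heisLin_e hF]), sv_inv_sv]
  have hrad : TrivRad hF K' := trivRad_conjSub hF hK E1
  have he' : ¬ IsGood hF K' T.e := fun h => he (hE1e ▸ (isGood_conjSub hF E1 T.e).1 h)
  have hte : tv hF T.e T.he ∉ K' := fun h => he' fun _ => h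
  have hmem : ∀ x ∈ K, E1 * x * E1⁻¹ ∈ K' := fun x hx => mem_conjSub.2 (by
    rwa [show E1⁻¹ * (E1 * x * E1⁻¹) * E1 = x by group])
  set d := emb hF T P
  have hd3 : d ^ 3 = 1 := by rw [← map_pow, hP3, map_one]
  have hdK : d ∈ K' := by
    have h := hmem _ hk
    obtain ⟨hc'', e⟩ := emb_conj_heis hF T P (hcond_neg hF hcu)
    rw [heis_inv hF T hcu, show E1 * (T.heis hF w c hc * d) * T.heis hF (-u) (cu ^ 2) (hcond_neg hF hcu) =
      E1 * T.heis hF w c hc * (d * T.heis hF (-u) (cu ^ 2) (hcond_neg hF hcu) * d⁻¹) * d by group, e,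
      T.heis_mul hF hcu hc, T.heis_mul hF (hcond_mul hF hcu hc) hc''] at h
    have hz : u + w + sv P (-u) = 0 := by
      rw [← zero_sub u, sv_sub, show sv P 0 = 0 from Matrix.mulVec_zero _]
      linear_combination (norm := module) hu
    obtain ⟨z, hz0, hz'⟩ : ∃ (z : F) (hz0 : HCond 2 (0 : Fin m → F) z), T.heis hF 0 z hz0 * d ∈ K' := by
      have key : ∀ {x : Fin m → F} {y : F} {hx : HCond 2 x y}, x = 0 → T.heis hF x y hx * d ∈ K' →
          ∃ (z : F) (hz0 : HCond 2 (0 : Fin m → F) z), T.heis hF 0 z hz0 * d ∈ K' := by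
        intro x y hx e hmem
        subst e
        exact ⟨y, hx, hmem⟩
      exact key hz h
    rcases (trace_zero_iff hF).1 (hcond_zero_iff.1 hz0) with rfl | rfl
    · rwa [heis_zero hF T hz0 rfl, one_mul] at hz'
    · exfalso
      rw [tv_e_eq hF T] at hz'
      have hcomm : tv hF T.e T.he * d = d * tv hF T.e T.he := by
        have h := tv_conj hF d T.e T.he
        rw [tv_congr hF _ T.he (emb_e hF T P), mul_inv_eq_iff_eq_mul] at h
        exact h.symm
      have h3 := K'.pow_mem hz' 3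
      rw [(show Commute (tv hF T.e T.he) d from hcomm).mul_pow, hd3, mul_one, pow_succ, pow_succ, pow_one,
        tv_mul_self, one_mul] at h3
      exact hte h3
  -- the lift of the transvection at `a`
  have hea : Cfsg.hermForm (m + 2) F 2 (eta a) (eta a) = 0 := by rw [herm_eta hF, ha]
  obtain ⟨x, hx, hxp⟩ : ∃ x : vecStab F m 2 T.e, (x : ↥(Cfsg.SU (m + 2) F 2)) ∈ K' ∧ piHom hF T x = tv hF a ha := by
    obtain ⟨w', c', hc', hk'⟩ := (mem_kbar hF T).1 (hfull ▸ Subgroup.mem_top (tv hF a ha))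
    let E : vecStab F m 2 T.e := ⟨E1, heis_mem_vecStab hF T hcu⟩
    refine ⟨E * ⟨_, mul_mem (heis_mem_vecStab hF T hc') (emb_mem_vecStab hF T _)⟩ * E⁻¹, hmem _ hk', ?_⟩
    have hE : piHom hF T E = 1 := by
      have : E = ⟨E1 * emb hF T 1, by rw [map_one, mul_one]; exact E.2⟩ := Subtype.ext (by simp [E])
      rw [this, piHom_heis_emb]
    rw [map_mul, map_mul, map_inv, hE, piHom_heis_emb, one_mul, inv_one, mul_one]
  obtain ⟨w', c', hc', hxe⟩ := exists_normal_form hF T x
  rw [hxp] at hxe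
  rw [hxe] at hx
  have hPt : P * tv hF a ha * P⁻¹ = tv hF a ha := by
    rw [tv_conj, tv_congr hF _ (by rw [herm_self_smul, ha, mul_zero]) hPa, tv_smul hF ha hl]
  obtain ⟨hc3, e3⟩ := emb_conj_heis hF T P hc'
  have hwfix : sv P w' = w' := by
    have h := K'.mul_mem (K'.mul_mem (K'.mul_mem hdK hx) (K'.inv_mem hdK)) (K'.inv_mem hx)
    have hdt : d * emb hF T (tv hF a ha) * d⁻¹ = emb hF T (tv hF a ha) := by
      rw [← map_inv, ← map_mul, ← map_mul, hPt]
    rw [show d * (T.heis hF w' c' hc' * emb hF T (tv hF a ha)) * d⁻¹ * (T.heis hF w' c' hc' * emb hF T (tv hF a ha))⁻¹ =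
      (d * T.heis hF w' c' hc' * d⁻¹) * (d * emb hF T (tv hF a ha) * d⁻¹) * (emb hF T (tv hF a ha))⁻¹ *
        (T.heis hF w' c' hc')⁻¹ by group, e3, hdt, mul_inv_cancel_right] at h
    have h1 := hrad T.e (T.e_ne_zero hF) T.he he' _ h ((qAt T.e).mul_mem
      (qsub_eq_qAt hF T ▸ T.heis_mem_qsub hF hc3) ((qAt T.e).inv_mem (qsub_eq_qAt hF T ▸ T.heis_mem_qsub hF hc')))
    exact (T.heis_inj hF (mul_inv_eq_one.1 h1)).1
  obtain rfl := hPfix _ hwfix
  rw [emb_tv hF T ha hea] at hx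
  rcases (trace_zero_iff hF).1 (hcond_zero_iff.1 hc') with rfl | rfl
  · rw [heis_zero hF T hc' rfl, one_mul] at hx
    have hgood := (isGood_conjSub hF E1 (eta a)).1 fun _ => hx
    rw [heis_inv hF T hcu, T.sv_heis hF, T.heisLin_eta hF, sub_eq_add_neg, ← neg_smul] at hgood
    exact ⟨_, hgood⟩
  · exfalso
    rw [tv_e_eq hF T] at hx
    have hgood : ∀ l : F, l ≠ 0 → IsGood hF K' (eta a + l • T.e) := by
      intro l hl hv
      by_contra hb
      have hea0 : eta a + l • T.e ≠ 0 := fun h => ha0 (by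
        have := congrArg proj h
        rwa [proj_add, proj_smul, proj_eta, T.proj_e hF, smul_zero, add_zero] at this)
      have h1 := hrad _ hea0 hv (fun h => hb (h hv)) _ hx ⟨?_, fun y hy => ⟨l ^ 2 * Cfsg.hermForm (m + 2) F 2 y T.e, ?_⟩⟩
      · have h2 := congrArg (fun g => sv g T.f) h1
        simp only [sv_mul, sv_tv, sv_one, T.wf hF, T.hfe hF, zero_smul, add_zero, one_smul] at h2
        exact T.e_ne_zero hF (add_eq_left.1 h2)
      · rw [sv_mul, sv_tv, sv_tv]
        simp only [herm_add_left, herm_smul_left, hea, T.we hF, T.he, T.ew, mul_zero, zero_smul, add_zero]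
      · rw [sv_mul, sv_tv, sv_tv]
        simp only [herm_add_left, herm_add_right hF, herm_smul_left, herm_smul_right, T.ew, mul_zero,
          add_zero] at hy ⊢
        match_scalars
        · ring
        · linear_combination hy - l ^ 2 * Cfsg.hermForm (m + 2) F 2 y T.e * two_eq_zero hF
        · linear_combination -(Cfsg.hermForm (m + 2) F 2 y T.e) * cube_eq_one hF hl
    obtain ⟨v, hv⟩ := exists_omega hF
    have hv3 : v ^ 3 = 1 := by linear_combination (v - 1) * hv
    have hv0 : v ≠ 0 := fun h => by simp [h] at hv3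
    have hiso : ∀ l : F, Cfsg.hermForm (m + 2) F 2 (eta a + l • T.e) (eta a + l • T.e) = 0 := fun l => by
      simp only [herm_add_left, herm_add_right hF, herm_smul_left, herm_smul_right, hea, T.he, T.ew, T.we hF,
        mul_zero, add_zero]
    obtain ⟨hc4, e4⟩ := tv_mul_tv_heis hF T ha 1 v (hiso 1) (hiso v)
    have h4 := K'.mul_mem (hgood 1 one_ne_zero (hiso 1)) (hgood v hv0 (hiso v))
    rw [e4] at h4
    have h5 := hrad T.e (T.e_ne_zero hF) T.he he' _ h4 (qsub_eq_qAt hF T ▸ T.heis_mem_qsub hF hc4)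
    have h6 := congrArg (fun g => proj (sv g T.f)) h5
    simp only [T.sv_heis hF, sv_one, T.heisLin_f hF, proj_add, proj_smul, proj_eta, T.proj_f hF, T.proj_e hF,
      smul_zero, add_zero, zero_add] at h6
    rcases smul_eq_zero.1 h6 with h7 | h7
    · have : (1 : F) + v = 0 := eq_zero_of_pow_eq_zero h7
      exact one_ne_zero (α := F) (by linear_combination hv - v * this)
    · exact ha0 h7

end CfsgLib.MinIndexUTwo
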