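import Mathlib
import Cfsg.Agent.MinIndexUTwo.Basic

/-!
A set of isotropic points meeting every totally isotropic line through an outside point exactly once is
at least as large as the set of isotropic points of a non-degenerate hyperplane.
-/

set_option autoImplicit false
set_option linter.unusedSectionVars false

open scoped Classical

namespace CfsgLib.MinIndexUTwo

open Matrix CfsgLib.Unitary CfsgLib.AutPSU CfsgLib.AutPSU.Frame CfsgLib.SchurClassical.Un

variable {F : Type*} [Field F] [Fintype F] (hF : Fintype.card F = 2 ^ 2)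

omit [Fintype F] in
/-- `Z` is invariant under scalars and meets every line through an outside point, inside its perp, once. -/
structure LineSet {k : ℕ} (Z : (Fin k → F) → Prop) : Prop where
  smul : ∀ x, Cfsg.hermForm k F 2 x x = 0 → ∀ l : F, l ≠ 0 → Z x → Z (l • x)
  meets : ∀ u w, u ≠ 0 → Cfsg.hermForm k F 2 u u = 0 → Cfsg.hermForm k F 2 w w = 0 →
    Cfsg.hermForm k F 2 w u = 0 → (∀ c : F, w ≠ c • u) → ¬ Z u → ∃ c : F, Z (w + c • u)
  once : ∀ u w, u ≠ 0 → Cfsg.hermForm k F 2 u u = 0 → Cfsg.hermForm k F 2 w w = 0 →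
    Cfsg.hermForm k F 2 w u = 0 → (∀ c : F, w ≠ c • u) → ¬ Z u → ∀ c c' : F, Z (w + c • u) → Z (w + c' • u) → c = c'

include hF

/-- The residue of a line set at one of its points. -/
theorem residue {j : ℕ} {Z : (Fin (j + 2) → F) → Prop} (hZ : LineSet Z) (T : Frame F j 2)
    (A : ↥(Cfsg.SU (j + 2) F 2)) :
    LineSet (fun b : Fin j → F => ∃ c : F, Z (sv A (eta b + c • T.e))) := by
  have hiso : ∀ (b : Fin j → F) (c : F), Cfsg.hermForm j F 2 b b = 0 →
      Cfsg.hermForm (j + 2) F 2 (sv A (eta b + c • T.e)) (sv A (eta b + c • T.e)) = 0 := fun b c hb => by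
    rw [sv_herm]
    simp only [herm_add_left, herm_add_right hF, herm_smul_left, herm_smul_right, herm_eta hF, hb, T.he, T.ew,
      T.we hF, mul_zero, add_zero]
  have hproj : ∀ (b : Fin j → F) (c : F), proj (eta b + c • T.e) = b := fun b c => by
    rw [proj_add, proj_smul, proj_eta, T.proj_e hF, smul_zero, add_zero]
  have hperp : ∀ (b b' : Fin j → F) (c c' : F), Cfsg.hermForm j F 2 b' b = 0 →
      Cfsg.hermForm (j + 2) F 2 (sv A (eta b' + c' • T.e)) (sv A (eta b + c • T.e)) = 0 := fun b b' c c' hb => by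
    rw [sv_herm]
    simp only [herm_add_left, herm_add_right hF, herm_smul_left, herm_smul_right, herm_eta hF, hb, T.he, T.ew,
      T.we hF, mul_zero, add_zero]
  have hne : ∀ (b : Fin j → F) (c : F), b ≠ 0 → sv A (eta b + c • T.e) ≠ 0 := fun b c hb h => hb (by
    have h' : sv A⁻¹ (sv A (eta b + c • T.e)) = 0 := by rw [h]; exact Matrix.mulVec_zero _
    rw [sv_inv_sv] at h'
    have h'' := congrArg proj h'
    rwa [hproj] at h'')
  have hind : ∀ (b b' : Fin j → F) (c c' : F), (∀ d : F, b' ≠ d • b) →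
      ∀ d : F, sv A (eta b' + c' • T.e) ≠ d • sv A (eta b + c • T.e) := fun b b' c c' hb d h => hb d (by
    have h' := congrArg (fun x => proj (sv A⁻¹ x)) h
    simpa only [sv_smul, sv_inv_sv, proj_smul, hproj] using h')
  refine ⟨?_, ?_, ?_⟩
  · rintro b hb l hl ⟨c, hc⟩
    refine ⟨l * c, ?_⟩
    have h := hZ.smul _ (hiso b c hb) l hl hc
    rwa [← sv_smul, smul_add, ← eta_smul, smul_smul] at h
  · intro u w hu0 hu hw hwu hind' hbad
    obtain ⟨c, hc⟩ := hZ.meets (sv A (eta u + (0 : F) • T.e)) (sv A (eta w + (0 : F) • T.e)) (hne u 0 hu0)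
      (hiso u 0 hu) (hiso w 0 hw) (hperp u w 0 0 hwu) (hind u w 0 0 hind') (fun h => hbad ⟨0, h⟩)
    refine ⟨c, 0, ?_⟩
    rw [← sv_smul, ← sv_add] at hc
    convert hc using 2
    rw [eta_add, eta_smul, zero_smul, add_zero, add_zero, add_zero]
  · intro u w hu0 hu hw hwu hind' hbad l l' hl hl'
    obtain ⟨c, hc⟩ := hl
    obtain ⟨c', hc'⟩ := hl'
    by_contra hne'
    have hd : l - l' ≠ 0 := sub_ne_zero.2 hne'
    set d := (c - c') / (l - l') with hdd
    have hwl : Cfsg.hermForm j F 2 (w + l' • u) (w + l' • u) = 0 := by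
      simp only [herm_add_left, herm_add_right hF, herm_smul_left, herm_smul_right, hu, hw, hwu,
        herm_eq_zero_comm hF hwu, mul_zero, add_zero]
    have h := hZ.once (sv A (eta u + d • T.e)) (sv A (eta (w + l' • u) + c' • T.e)) (hne u d hu0) (hiso u d hu)
      (hiso _ c' hwl)
      (hperp u _ d c' (by rw [herm_add_left, herm_smul_left, hwu, hu, mul_zero, add_zero]))
      (hind u _ d c' fun e he => hind' (e - l') (by rw [sub_smul, ← he]; abel))
      (fun h => hbad ⟨d, h⟩) 0 (l - l') (by rwa [zero_smul, add_zero]) (by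
        rw [← sv_smul, ← sv_add]
        convert hc using 2
        rw [smul_add, smul_smul, hdd, mul_div_cancel₀ _ hd, eta_add, eta_smul, eta_add, eta_smul]
        module)
    exact hd h.symm

/-- The number of centres of a line set. -/
noncomputable def lineCard {k : ℕ} (Z : (Fin k → F) → Prop) : ℕ :=
  Nat.card {x : Fin k → F // (Cfsg.hermForm k F 2 x x = 0 ∧ x ≠ 0) ∧ Z x}

theorem card_not_add {k : ℕ} (Z : (Fin k → F) → Prop) :
    Nat.card {x : Fin k → F // (Cfsg.hermForm k F 2 x x = 0 ∧ x ≠ 0) ∧ ¬ Z x} + lineCard Z = isoN F k := by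
  rw [lineCard, isoN, Nat.card_eq_fintype_card, Nat.card_eq_fintype_card, Nat.card_eq_fintype_card,
    Fintype.card_subtype, Fintype.card_subtype, Fintype.card_subtype,
    ← Finset.card_filter_add_card_filter_not (s := Finset.univ.filter
      fun x : Fin k → F => Cfsg.hermForm k F 2 x x = 0 ∧ x ≠ 0) Z, Finset.filter_filter, Finset.filter_filter]
  exact add_comm _ _

theorem outside_perp_ge {j : ℕ} (hj : 1 ≤ j) {Z : (Fin (j + 2) → F) → Prop} (hZ : LineSet Z)
    {u : Fin (j + 2) → F} (hu : Cfsg.hermForm (j + 2) F 2 u u = 0) (hu0 : u ≠ 0) (hbad : ¬ Z u) :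
    isoN F j ≤ Nat.card {x : Fin (j + 2) → F // ((Cfsg.hermForm (j + 2) F 2 x x = 0 ∧ x ≠ 0) ∧ Z x) ∧
      Cfsg.hermForm (j + 2) F 2 x u = 0} := by
  obtain ⟨T⟩ := exists_frame (m := j) hF
  obtain ⟨A, rfl⟩ := exists_SU_map_isotropic hF (by omega) (T.e_ne_zero hF) hu0 T.he hu
  have hw : ∀ b : {b : Fin j → F // Cfsg.hermForm j F 2 b b = 0 ∧ b ≠ 0},
      ∃ c : F, Z (sv A (eta b.1) + c • sv A T.e) := fun b =>
    hZ.meets _ _ hu0 hu (by rw [sv_herm, herm_eta hF, b.2.1]) (by rw [sv_herm, T.ew]) (fun d h => b.2.2 (by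
      have h' := congrArg (fun x => proj (sv A⁻¹ x)) h
      simpa only [sv_smul, sv_inv_sv, proj_smul, proj_eta, T.proj_e hF, smul_zero] using h')) hbad
  choose c hc using hw
  have hx : ∀ b : {b : Fin j → F // Cfsg.hermForm j F 2 b b = 0 ∧ b ≠ 0},
      sv A⁻¹ (sv A (eta b.1) + c b • sv A T.e) = eta b.1 + c b • T.e := fun b => by
    rw [sv_add, sv_smul, sv_inv_sv, sv_inv_sv]
  refine Nat.card_le_card_of_injective (fun b => ⟨_, ⟨⟨?_, ?_⟩, hc b⟩, ?_⟩) ?_
  · simp only [herm_add_left, herm_add_right hF, herm_smul_left, herm_smul_right, sv_herm, herm_eta hF, b.2.1,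
      T.he, T.ew, T.we hF, mul_zero, add_zero]
  · intro h
    refine b.2.2 ?_
    have h' := congrArg proj (hx b)
    rw [h, show sv A⁻¹ 0 = 0 from Matrix.mulVec_zero _, proj_add, proj_smul, proj_eta, T.proj_e hF, smul_zero,
      add_zero] at h'
    rw [← h']; rfl
  · simp only [herm_add_left, herm_smul_left, sv_herm, T.he, T.ew, mul_zero, add_zero]
  · intro b b' h
    have h1 := congrArg (fun x => proj (sv A⁻¹ x)) (congrArg Subtype.val h)
    simp only [hx, proj_add, proj_smul, proj_eta, T.proj_e hF, smul_zero, add_zero] at h1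
    exact Subtype.ext h1

theorem outside_perp_le {j : ℕ} {Z : (Fin (j + 2) → F) → Prop} (hZ : LineSet Z) (T : Frame F j 2)
    (A : ↥(Cfsg.SU (j + 2) F 2)) (hs : Z (sv A T.e)) :
    Nat.card {x : Fin (j + 2) → F // ((Cfsg.hermForm (j + 2) F 2 x x = 0 ∧ x ≠ 0) ∧ ¬ Z x) ∧
      Cfsg.hermForm (j + 2) F 2 x (sv A T.e) = 0} + 4 * lineCard (fun b : Fin j → F => ∃ c : F, Z (sv A (eta b + c • T.e))) ≤
      4 * isoN F j := by
  rw [← card_not_add hF (fun b : Fin j → F => ∃ c : F, Z (sv A (eta b + c • T.e))), mul_add]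
  refine Nat.add_le_add_right ?_ _
  have h4 : Nat.card F = 4 := by rw [Nat.card_eq_fintype_card, hF]; rfl
  rw [← h4, ← Nat.card_prod]
  have hs0 : sv A T.e ≠ 0 := fun h => T.e_ne_zero hF (by rw [← sv_inv_sv A T.e, h]; exact Matrix.mulVec_zero _)
  have hse : Cfsg.hermForm (j + 2) F 2 (sv A T.e) (sv A T.e) = 0 := by rw [sv_herm, T.he]
  have key : ∀ x : {x : Fin (j + 2) → F // ((Cfsg.hermForm (j + 2) F 2 x x = 0 ∧ x ≠ 0) ∧ ¬ Z x) ∧
      Cfsg.hermForm (j + 2) F 2 x (sv A T.e) = 0},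
      x.1 = sv A (eta (proj (sv A⁻¹ x.1)) + Cfsg.hermForm (j + 2) F 2 (sv A⁻¹ x.1) T.f • T.e) ∧
      (Cfsg.hermForm j F 2 (proj (sv A⁻¹ x.1)) (proj (sv A⁻¹ x.1)) = 0 ∧ proj (sv A⁻¹ x.1) ≠ 0) ∧
      ¬ ∃ c : F, Z (sv A (eta (proj (sv A⁻¹ x.1)) + c • T.e)) := by
    rintro ⟨x, ⟨⟨hx, hx0⟩, hxZ⟩, hxs⟩
    obtain ⟨z, rfl⟩ : ∃ z, x = sv A z := ⟨sv A⁻¹ x, (sv_sv_inv A x).symm⟩
    rw [sv_herm] at hx hxs
    simp only [sv_inv_sv]
    set d := Cfsg.hermForm (j + 2) F 2 z T.f with hd
    have hz : z = eta (proj z) + d • T.e := by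
      conv_lhs => rw [T.eq_of_perp_e hF hxs]
      exact add_comm _ _
    have hzz : Cfsg.hermForm j F 2 (proj z) (proj z) = 0 := by
      rw [T.herm_coords hF, hxs] at hx
      simpa using hx
    have hp0 : proj z ≠ 0 := by
      intro h
      rw [h, eta_zero, zero_add] at hz
      have hd0 : d ≠ 0 := fun h0 => hx0 (by rw [hz, h0, zero_smul]; exact Matrix.mulVec_zero _)
      exact hxZ (by rw [hz, sv_smul]; exact hZ.smul _ hse d hd0 hs)
    refine ⟨congrArg (sv A) hz, ⟨hzz, hp0⟩, ?_⟩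
    rintro ⟨c, hc⟩
    by_cases hcd : c = d
    · exact hxZ (by rw [hz, ← hcd]; exact hc)
    have hne : c - d ≠ 0 := sub_ne_zero.2 hcd
    have hiso : Cfsg.hermForm (j + 2) F 2 (sv A (eta (proj z) + c • T.e)) (sv A (eta (proj z) + c • T.e)) = 0 := by
      rw [sv_herm]
      simp only [herm_add_left, herm_add_right hF, herm_smul_left, herm_smul_right, herm_eta hF, hzz, T.he, T.ew,
        T.we hF, mul_zero, add_zero]
    have h := hZ.once (sv A z) (sv A T.e) hx0 (by rw [sv_herm, hx]) hse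
      (by rw [sv_herm]; exact herm_eq_zero_comm hF hxs)
      (fun e he => hp0 (by
        rw [← sv_smul] at he
        have he' := congrArg (fun y => proj (sv A⁻¹ y)) he
        simp only [sv_inv_sv, proj_smul, T.proj_e hF] at he'
        refine (smul_eq_zero.1 he'.symm).resolve_left fun e0 => ?_
        rw [e0, zero_smul] at he
        exact hs0 (by rw [he]; exact Matrix.mulVec_zero _)))
      hxZ 0 (c - d)⁻¹ (by rwa [zero_smul, add_zero]) (by
        have h' := hZ.smul _ hiso (c - d)⁻¹ (inv_ne_zero hne) hc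
        rw [← sv_smul] at h'
        rw [← sv_smul, ← sv_add]
        convert h' using 2
        conv_lhs => rw [hz]
        match_scalars
        · field_simp; ring
        · ring)
    exact inv_ne_zero hne h.symm
  refine Nat.card_le_card_of_injective (fun x => (Cfsg.hermForm (j + 2) F 2 (sv A⁻¹ x.1) T.f,
    (⟨proj (sv A⁻¹ x.1), (key x).2⟩ : {b : Fin j → F // (Cfsg.hermForm j F 2 b b = 0 ∧ b ≠ 0) ∧
      ¬ ∃ c : F, Z (sv A (eta b + c • T.e))}))) ?_
  intro x y h
  have h1 := congrArg (fun p => p.1) h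
  have h2 := congrArg (fun p => p.2.1) h
  dsimp only at h1 h2
  exact Subtype.ext (by rw [(key x).1, (key y).1, h1, h2])

/-- A line set has at least as many points as a non-degenerate hyperplane. -/
theorem line_set_card : ∀ (i : ℕ) (Z : (Fin (2 * i + 2) → F) → Prop), LineSet Z →
    isoN F (2 * i + 1) ≤ lineCard Z := by
  intro i
  induction i with
  | zero => intro Z _; rw [show 2 * 0 + 1 = 1 from rfl, isoN_one hF]; exact Nat.zero_le _
  | succ i ih =>
    intro Z hZ
    set j := 2 * i + 2 with hj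
    change LineSet (k := j + 2) Z at hZ
    obtain ⟨T⟩ := exists_frame (m := j) hF
    let B : Finset (Fin (j + 2) → F) :=
      Finset.univ.filter fun x => (Cfsg.hermForm (j + 2) F 2 x x = 0 ∧ x ≠ 0) ∧ ¬ Z x
    let G : Finset (Fin (j + 2) → F) :=
      Finset.univ.filter fun x => (Cfsg.hermForm (j + 2) F 2 x x = 0 ∧ x ≠ 0) ∧ Z x
    have hG : G.card = lineCard (k := j + 2) Z := by
      rw [lineCard, Nat.card_eq_fintype_card, Fintype.card_subtype]
    have hB : B.card + G.card = isoN F (j + 2) := by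
      rw [hG, ← card_not_add hF (k := j + 2) Z, Nat.card_eq_fintype_card, Fintype.card_subtype]
    have hlow : B.card * isoN F j ≤
        ∑ u ∈ B, (G.filter fun s => Cfsg.hermForm (j + 2) F 2 s u = 0).card := by
      rw [← smul_eq_mul, ← Finset.sum_const]
      refine Finset.sum_le_sum fun u hu => ?_
      simp only [B, Finset.mem_filter, Finset.mem_univ, true_and] at hu
      refine (outside_perp_ge hF (by omega) hZ hu.1.1 hu.1.2 hu.2).trans (le_of_eq ?_)
      rw [Nat.card_eq_fintype_card, Fintype.card_subtype]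
      simp only [G, Finset.filter_filter]
      rfl
    have hhigh : ∀ s ∈ G, (B.filter fun u => Cfsg.hermForm (j + 2) F 2 u s = 0).card + 4 * isoN F (2 * i + 1) ≤
        4 * isoN F j := by
      intro s hs
      simp only [G, Finset.mem_filter, Finset.mem_univ, true_and] at hs
      obtain ⟨A, rfl⟩ := exists_SU_map_isotropic hF (by omega) (T.e_ne_zero hF) hs.1.2 T.he hs.1.1
      refine le_trans ?_ (outside_perp_le hF hZ T A hs.2)
      refine Nat.add_le_add (le_of_eq ?_) (Nat.mul_le_mul_left _ (ih _ (residue hF hZ T A)))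
      rw [Nat.card_eq_fintype_card, Fintype.card_subtype]
      simp only [B, Finset.filter_filter]
      rfl
    have hswap : ∑ u ∈ B, (G.filter fun s => Cfsg.hermForm (j + 2) F 2 s u = 0).card =
        ∑ s ∈ G, (B.filter fun u => Cfsg.hermForm (j + 2) F 2 u s = 0).card := by
      simp only [Finset.card_filter]
      rw [Finset.sum_comm]
      refine Finset.sum_congr rfl fun s _ => Finset.sum_congr rfl fun u _ => ?_
      exact if_congr ⟨herm_eq_zero_comm hF, herm_eq_zero_comm hF⟩ rfl rfl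
    have hmain : B.card * isoN F j + G.card * (4 * isoN F (2 * i + 1)) ≤ G.card * (4 * isoN F j) := by
      refine le_trans (Nat.add_le_add_right (hlow.trans (le_of_eq hswap)) _) ?_
      rw [← smul_eq_mul (G.card), ← Finset.sum_const, ← Finset.sum_add_distrib, ← smul_eq_mul (G.card),
        ← Finset.sum_const]
      exact Finset.sum_le_sum hhigh
    obtain ⟨c, hc⟩ : ∃ c, 2 ^ j = 4 * c := ⟨2 ^ (2 * i), by rw [hj, pow_add]; ring⟩
    have e1 := isoN_even hF (k := j) (a := 2 * c) ⟨i + 1, by omega⟩ (by rw [hc]; ring)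
    have e2 := isoN_odd hF (k := 2 * i + 1) (a := c) ⟨i, by omega⟩ (by
      have : 2 ^ j = 2 * 2 ^ (2 * i + 1) := by rw [hj, pow_succ]; ring
      omega)
    have e3 := isoN_even hF (k := j + 2) (a := 8 * c) ⟨i + 2, by omega⟩ (by rw [pow_add, hc]; ring)
    have e4 := isoN_odd hF (k := 2 * (i + 1) + 1) (a := 4 * c) ⟨i + 1, rfl⟩ (by
      rw [show 2 * (i + 1) + 1 = j + 1 by omega, pow_succ, hc]; ring)
    rw [← hG]
    apply Nat.cast_le (α := ℤ).1
    rw [e4]
    have hBz : (B.card : ℤ) = (isoN F (j + 2) : ℤ) - G.card := by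
      rw [← hB]; push_cast; ring
    have hm' : (B.card : ℤ) * isoN F j + G.card * (4 * isoN F (2 * i + 1)) ≤ G.card * (4 * isoN F j) := by
      exact_mod_cast hmain
    rw [hBz, e1, e2, e3] at hm'
    push_cast at hm' ⊢
    have hc1 : (1 : ℤ) ≤ c := by
      have : 0 < 2 ^ j := Nat.two_pow_pos j
      omega
    have hpos : (0 : ℤ) < (2 * c + 1) * (16 * c - 1) := mul_pos (by linarith) (by linarith)
    refine le_of_mul_le_mul_right ?_ hpos
    nlinarith [hm']

end CfsgLib.MinIndexUTwo
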