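import Mathlib
import Cfsg.Agent.MinIndexUTwo.Basic
import Cfsg.Agent.MinIndexPSp.Arith

/-!
A trace-isotropic additive group of vectors has many translates: a lower bound for the index of its
stabiliser.
-/

set_option autoImplicit false
set_option linter.unusedSectionVars false

open scoped Classical

namespace CfsgLib.MinIndexUTwo

open Matrix CfsgLib.Unitary CfsgLib.AutPSU CfsgLib.AutPSU.Frame CfsgLib.SchurClassical.Un

variable {F : Type*} [Field F] [Fintype F] (hF : Fintype.card F = 2 ^ 2)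

include hF

theorem pair_perp {m : ℕ} (hm : 4 ≤ m) {r : Fin m → F} (hr : Cfsg.hermForm m F 2 r r = 0) (hr0 : r ≠ 0) :
    ∃ a b, Cfsg.hermForm m F 2 a a = 0 ∧ Cfsg.hermForm m F 2 b b = 0 ∧ Cfsg.hermForm m F 2 a r = 0 ∧
      Cfsg.hermForm m F 2 b r = 0 ∧ Cfsg.hermForm m F 2 a b = 1 := by
  obtain ⟨j, rfl⟩ : ∃ j, m = j + 2 := ⟨m - 2, by omega⟩
  obtain ⟨T⟩ := exists_frame (m := j) hF
  obtain ⟨A, rfl⟩ := exists_SU_map_isotropic hF (by omega) (T.e_ne_zero hF) hr0 T.he hr
  obtain ⟨a, b, ha, hb, hab⟩ := exists_pair hF (k := j) (by omega)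
  exact ⟨sv A (eta a), sv A (eta b), by rw [sv_herm, herm_eta hF, ha], by rw [sv_herm, herm_eta hF, hb],
    by rw [sv_herm, T.ew], by rw [sv_herm, T.ew], by rw [sv_herm, herm_eta hF, hab]⟩

theorem perp_triple {m : ℕ} (hm : 4 ≤ m) {r x : Fin m → F} (hr : Cfsg.hermForm m F 2 r r = 0) (hr0 : r ≠ 0)
    (hxr : Cfsg.hermForm m F 2 x r = 0) (hx : ∀ c : F, x ≠ c • r) :
    ∃ a b, Cfsg.hermForm m F 2 a a = 0 ∧ Cfsg.hermForm m F 2 b b = 0 ∧ Cfsg.hermForm m F 2 a r = 0 ∧
      Cfsg.hermForm m F 2 b r = 0 ∧ Cfsg.hermForm m F 2 x a = 1 ∧ Cfsg.hermForm m F 2 x b = 1 ∧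
      Cfsg.hermForm m F 2 b a ≠ 0 ∧
      (Cfsg.hermForm m F 2 x x = 1 → Cfsg.hermForm m F 2 b a ^ 2 ≠ Cfsg.hermForm m F 2 b a) := by
  obtain ⟨j, rfl⟩ : ∃ j, m = j + 2 := ⟨m - 2, by omega⟩
  obtain ⟨T⟩ := exists_frame (m := j) hF
  obtain ⟨A, rfl⟩ := exists_SU_map_isotropic hF (by omega) (T.e_ne_zero hF) hr0 T.he hr
  obtain ⟨z, rfl⟩ : ∃ z, x = sv A z := ⟨sv A⁻¹ x, (sv_sv_inv A x).symm⟩
  rw [sv_herm] at hxr
  have hz := T.eq_of_perp_e hF hxr
  have hw : proj z ≠ 0 := fun h => hx _ (by rw [hz, h, eta_zero, add_zero, sv_smul])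
  obtain ⟨a, ha, hwa⟩ := exists_iso_one hF (k := j) (by omega) hw
  have haw : Cfsg.hermForm j F 2 a (proj z) = 1 := by rw [herm_conj hF, hwa, one_pow]
  have hzw : ∀ y, Cfsg.hermForm (j + 2) F 2 z (eta y) = Cfsg.hermForm j F 2 (proj z) y := fun y => by
    conv_lhs => rw [hz, herm_add_left, herm_smul_left, T.we hF, mul_zero, zero_add, herm_eta hF]
  have hzz : Cfsg.hermForm (j + 2) F 2 z z = Cfsg.hermForm j F 2 (proj z) (proj z) := by
    rw [T.herm_coords hF, hxr, zero_mul, zero_pow two_ne_zero, mul_zero, zero_add, zero_add]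
  suffices h : ∃ b, Cfsg.hermForm j F 2 b b = 0 ∧ Cfsg.hermForm j F 2 (proj z) b = 1 ∧
      Cfsg.hermForm j F 2 b a ≠ 0 ∧ (Cfsg.hermForm j F 2 (proj z) (proj z) = 1 →
        Cfsg.hermForm j F 2 b a ^ 2 ≠ Cfsg.hermForm j F 2 b a) by
    obtain ⟨b, hb, hwb, hba, hN⟩ := h
    refine ⟨sv A (eta a), sv A (eta b), by rw [sv_herm, herm_eta hF, ha], by rw [sv_herm, herm_eta hF, hb],
      by rw [sv_herm, T.ew], by rw [sv_herm, T.ew], by rw [sv_herm, hzw, hwa], by rw [sv_herm, hzw, hwb],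
      by rwa [sv_herm, herm_eta hF], ?_⟩
    rw [sv_herm, hzz, sv_herm, herm_eta hF]
    exact hN
  rcases herm_self_cases hF (proj z) with h0 | h1
  · refine ⟨a + proj z, ?_, ?_, ?_, fun h => absurd (h0.symm.trans h) zero_ne_one⟩
    · simp only [herm_add_left, herm_add_right hF, ha, hwa, haw, h0, add_zero, zero_add]
      exact add_self hF 1
    · rw [herm_add_right hF, hwa, h0, add_zero]
    · rw [herm_add_left, ha, hwa, zero_add]; exact one_ne_zero
  · obtain ⟨w, hw2⟩ := exists_omega hF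
    have hw3 : w ^ 3 = 1 := by linear_combination (w - 1) * hw2
    refine ⟨w ^ 2 • proj z + w • a, ?_, ?_, ?_, fun _ => ?_⟩
    · simp only [herm_add_left, herm_add_right hF, herm_smul_left, herm_smul_right, ha, hwa, haw, h1]
      linear_combination (w ^ 3 + 1) * hw3 + w * hw3 + hw2 + w ^ 2 * hw3
    · simp only [herm_add_right hF, herm_smul_right, hwa, h1]
      linear_combination hw2 + w * hw3 - two_eq_zero hF + w ^ 0 * two_eq_zero hF * 0 + (0:F) * hw3
    · simp only [herm_add_left, herm_smul_left, ha, hwa, mul_one, mul_zero, add_zero]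
      exact pow_ne_zero 2 (fun h => by simp [h] at hw3)
    · simp only [herm_add_left, herm_smul_left, ha, hwa, mul_one, mul_zero, add_zero]
      intro h
      rcases (fixed_iff hF).1 h with h | h
      · exact (fun h' => by simp [h'] at hw3 : w ≠ 0) (eq_zero_of_pow_eq_zero h)
      · have : w = 1 := by linear_combination hw3 - w * h
        have h3 : (1 : F) = 0 := by linear_combination hw2 - (w + 2) * this - two_eq_zero hF
        exact one_ne_zero h3

variable {m : ℕ}

local notation "hm[" u "," v "]" => Cfsg.hermForm m F 2 u v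

/-- The elements of order three fixing `r` preserve `R`. -/
def Stable (_hF : Fintype.card F = 2 ^ 2) (R : AddSubgroup (Fin m → F)) (r : Fin m → F) : Prop :=
  ∀ g : ↥(Cfsg.SU m F 2), sv g r = r → g ^ 3 = 1 → ∀ s ∈ R, sv g s ∈ R

variable {R : AddSubgroup (Fin m → F)} {r : Fin m → F}

theorem sv_tv_fix {v : Fin m → F} (hv : hm[v, v] = 0) (hvr : hm[v, r] = 0) : sv (tv hF v hv) r = r := by
  rw [sv_tv, herm_eq_zero_comm hF hvr, zero_smul, add_zero]

theorem Stable.pair (h : Stable hF R r) {x b : Fin m → F} (hx : hm[x, x] = 0) (hb : hm[b, b] = 0)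
    (hxr : hm[x, r] = 0) (hbr : hm[b, r] = 0) (hxb : hm[x, b] ≠ 0) {s : Fin m → F} (hs : s ∈ R) :
    sv (tv hF x hx) (sv (tv hF b hb) s) ∈ R := by
  rw [← sv_mul]
  exact h _ (by rw [sv_mul, sv_tv_fix hF hb hbr, sv_tv_fix hF hx hxr]) (tv_mul_tv_cube hF hx hb hxb) s hs

theorem Stable.two (h : Stable hF R r) {x y b : Fin m → F} (hx : hm[x, x] = 0) (hy : hm[y, y] = 0)
    (hb : hm[b, b] = 0) (hxr : hm[x, r] = 0) (hyr : hm[y, r] = 0) (hbr : hm[b, r] = 0)
    (hxb : hm[x, b] ≠ 0) (hyb : hm[y, b] ≠ 0) {s : Fin m → F} (hs : s ∈ R) :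
    sv (tv hF x hx) (sv (tv hF y hy) s) ∈ R := by
  have h1 := h.pair hF hb hy hbr hyr (fun h0 => hyb (herm_eq_zero_comm hF h0)) hs
  have h2 := h.pair hF hx hb hxr hbr hxb h1
  have e := congrArg (fun g => sv g (sv (tv hF y hy) s)) (tv_mul_self hF b hb)
  simp only [sv_mul, sv_one] at e
  rwa [e] at h2

/-- The shift along `r` given by an isotropic vector of its perp. -/
theorem Stable.shift (h : Stable hF R r) {a b : Fin m → F} (ha : hm[a, a] = 0) (hb : hm[b, b] = 0)
    (hr : hm[r, r] = 0) (har : hm[a, r] = 0) (hbr : hm[b, r] = 0) (hab : hm[a, b] ≠ 0)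
    {s : Fin m → F} (hs : s ∈ R) : hm[s, r] • a + (hm[s, a] + hm[s, r]) • r ∈ R := by
  have hra := herm_eq_zero_comm hF har
  have hx : hm[a + r, a + r] = 0 := by
    simp only [herm_add_left, herm_add_right hF, ha, har, hra, hr, add_zero]
  have hxr : hm[a + r, r] = 0 := by rw [herm_add_left, har, hr, add_zero]
  have hxb : hm[a + r, b] ≠ 0 := by rwa [herm_add_left, herm_eq_zero_comm hF hbr, add_zero]
  have h1 := R.sub_mem (h.two hF hx ha hb hxr har hbr hxb hab hs) hs
  convert h1 using 1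
  simp only [sv_tv, herm_add_left, herm_add_right hF, herm_smul_left, ha, har, mul_zero, add_zero]
  match_scalars
  · linear_combination -hm[s, a] * two_eq_zero hF
  · ring
  · ring

variable (hTI : ∀ x : Fin m → F, x ∈ R → ∀ y : Fin m → F, y ∈ R →
  Cfsg.hermForm m F 2 x y ^ 2 = Cfsg.hermForm m F 2 x y)

include hTI

theorem perp_of_stable (hm' : 4 ≤ m) (hr : hm[r, r] = 0) (hr0 : r ≠ 0) (hrR : r ∈ R) (h : Stable hF R r)
    {s : Fin m → F} (hs : s ∈ R) : hm[s, r] = 0 := by
  by_contra h0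
  have h1 : hm[s, r] = 1 := ((fixed_iff hF).1 (hTI s hs r hrR)).resolve_left h0
  obtain ⟨a, b, ha, hb, har, hbr, hab⟩ := pair_perp hF hm' hr hr0
  obtain ⟨w, hw⟩ := exists_omega hF
  have hw0 : w ≠ 0 := fun h => by rw [h] at hw; simp at hw
  have hwb : hm[w • b, w • b] = 0 := by rw [herm_self_smul, hb, mul_zero]
  have hwbr : hm[w • b, r] = 0 := by rw [herm_smul_left, hbr, mul_zero]
  have hba : hm[b, a] ≠ 0 := fun h => by rw [herm_eq_zero_comm hF h] at hab; exact zero_ne_one hab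
  have e1 := h.shift hF ha hb hr har hbr (by rw [hab]; exact one_ne_zero) hs
  have e2 := h.shift hF hwb ha hr hwbr har (by rw [herm_smul_left]; exact mul_ne_zero hw0 hba) hs
  rw [h1, one_smul] at e1 e2
  have h2 := hTI _ e1 _ e2
  simp only [herm_add_left, herm_add_right hF, herm_smul_left, herm_smul_right, har, hab, hr,
    herm_eq_zero_comm hF hbr, mul_zero, mul_one, add_zero] at h2
  rcases (fixed_iff hF).1 h2 with h3 | h3
  · exact hw0 (eq_zero_of_pow_eq_zero h3)
  · have h4 : w ^ 3 = 1 := by linear_combination (w - 1) * hw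
    have : w = 1 := by linear_combination h4 - w * h3
    have h5 : (1 : F) = 0 := by linear_combination hw - (w + 2) * this - two_eq_zero hF
    exact one_ne_zero h5

theorem smul_mem_of_stable (hm' : 4 ≤ m) (hr : hm[r, r] = 0) (hr0 : r ≠ 0) (hrR : r ∈ R) (h : Stable hF R r)
    (hout : ∃ s ∈ R, ∀ c : F, s ≠ c • r) (c : F) : c • r ∈ R := by
  rcases eq_or_ne c 0 with rfl | hc
  · rw [zero_smul]; exact R.zero_mem
  obtain ⟨s, hs, hsr⟩ := hout
  have hp := perp_of_stable hF hTI hm' hr hr0 hrR h hs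
  obtain ⟨a, b, ha, hb, har, hbr, hsa, -, hba, -⟩ := perp_triple hF hm' hr hr0 hp hsr
  have hla : hm[c ^ 2 • a, c ^ 2 • a] = 0 := by rw [herm_self_smul, ha, mul_zero]
  have e := h.shift hF hla hb hr (by rw [herm_smul_left, har, mul_zero]) hbr
    (by rw [herm_smul_left]; exact mul_ne_zero (pow_ne_zero _ hc) fun h0 => hba (herm_eq_zero_comm hF h0)) hs
  rw [hp, zero_smul, zero_add, add_zero, herm_smul_right, hsa, mul_one, ← pow_mul, pow_four hF] at e
  exact e

/-- Some element of order three fixing an isotropic vector of `R` moves `R`. -/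
theorem exists_mover (hm' : 4 ≤ m) (hR : 4 < Nat.card R) :
    ∃ r ∈ R, hm[r, r] = 0 ∧ r ≠ 0 ∧ ¬ Stable hF R r := by
  by_contra hcon
  push Not at hcon
  -- an isotropic element of `R`
  have hadd : ∀ x ∈ R, ∀ y ∈ R, hm[x + y, x + y] = hm[x, x] + hm[y, y] := fun x hx y hy => by
    have h1 := hTI x hx y hy
    rw [← herm_conj hF x y] at h1
    simp only [herm_add_left, herm_add_right hF]
    linear_combination h1 + hm[x, y] * two_eq_zero hF
  obtain ⟨r, hrR, hr, hr0⟩ : ∃ r ∈ R, hm[r, r] = 0 ∧ r ≠ 0 := by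
    by_contra hno
    push Not at hno
    have hsub : Subsingleton {x : R // x ≠ 0} := ⟨fun x y => by
      have hx := (herm_self_cases hF x.1.1).resolve_left fun h => x.2 (Subtype.ext (hno _ x.1.2 h))
      have hy := (herm_self_cases hF y.1.1).resolve_left fun h => y.2 (Subtype.ext (hno _ y.1.2 h))
      have h0 : x.1.1 + y.1.1 = 0 := hno _ (R.add_mem x.1.2 y.1.2) (by
        rw [hadd _ x.1.2 _ y.1.2, hx, hy, add_self hF])
      refine Subtype.ext (Subtype.ext ?_)
      rw [eq_neg_of_add_eq_zero_left h0]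
      exact funext fun i => neg_eq hF _⟩
    have h1 : Nat.card {x : R // x ≠ 0} ≤ 1 := Finite.card_le_one_iff_subsingleton.2 hsub
    have h2 : Nat.card R = Nat.card {x : R // x ≠ 0} + 1 := by
      rw [← Finite.card_option]
      exact Nat.card_congr (Equiv.optionSubtypeNe (0 : R)).symm
    omega
  have hout : ∀ v : Fin m → F, ∃ s ∈ R, ∀ c : F, s ≠ c • v := by
    intro v
    by_contra hno
    push Not at hno
    choose f hf using hno
    have h1 : Nat.card R ≤ Nat.card F := Nat.card_le_card_of_injective (fun x : R => f x.1 x.2)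
      fun x y h => Subtype.ext (by rw [hf x.1 x.2, hf y.1 y.2]; exact congrArg (· • v) h)
    rw [Nat.card_eq_fintype_card (α := F), hF] at h1
    omega
  have hst := hcon r hrR hr hr0
  obtain ⟨x, hxR, hx⟩ := hout r
  have hxr := perp_of_stable hF hTI hm' hr hr0 hrR hst hxR
  obtain ⟨a, b, ha, hb, har, hbr, hxa, hxb, hba, hN⟩ := perp_triple hF hm' hr hr0 hxr hx
  have hab : hm[a, b] ≠ 0 := fun h => hba (herm_eq_zero_comm hF h)
  have hy : b + (1 + hm[b, a]) • a ∈ R := by
    convert R.sub_mem (hst.pair hF ha hb har hbr hab hxR) hxR using 1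
    rw [sv_tv, sv_tv, hxb, one_smul, herm_add_left, hxa]
    abel
  have hbx : hm[b, x] = 1 := by rw [herm_conj hF, hxb, one_pow]
  have hax : hm[a, x] = 1 := by rw [herm_conj hF, hxa, one_pow]
  have hyx : hm[b + (1 + hm[b, a]) • a, x] = hm[b, a] := by
    rw [herm_add_left, herm_smul_left, hbx, hax, mul_one]
    linear_combination two_eq_zero hF
  rcases herm_self_cases hF x with h0 | h1
  · obtain ⟨w, hw⟩ := exists_omega hF
    have hxs := hcon x hxR h0 (fun h => hx 0 (by rw [h, zero_smul]))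
    have hwx := smul_mem_of_stable hF hTI hm' h0 (fun h => hx 0 (by rw [h, zero_smul])) hxR hxs (hout x) w
    have e1 := hTI _ hy _ hxR
    have e2 := hTI _ hy _ hwx
    rw [hyx] at e1
    rw [herm_smul_right, hyx, ((fixed_iff hF).1 e1).resolve_left hba, mul_one] at e2
    have h3 : w ^ 3 = 1 := by linear_combination (w - 1) * hw
    have h4 : w = w ^ 2 := by linear_combination e2 - w * h3
    have h5 : (1 : F) = 0 := by linear_combination hw - w * two_eq_zero hF + h4
    exact one_ne_zero h5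
  · exact hN h1 (hyx ▸ hTI _ hy _ hxR)

variable {Kb : Subgroup ↥(Cfsg.SU m F 2)} (hinv : ∀ k : ↥(Cfsg.SU m F 2), k ∈ Kb → ∀ x : Fin m → F, x ∈ R → sv k x ∈ R)

include hinv

/-- Every isotropic vector meets three translates of `R`. -/
theorem three_iso_le (hm' : 4 ≤ m) (hR : 4 < Nat.card R) :
    3 * isoN F m ≤ Kb.index * (Nat.card R - 1) := by
  obtain ⟨r, hrR, hr, hr0, hst⟩ := exists_mover hF hTI hm' hR
  unfold Stable at hst
  push Not at hst
  obtain ⟨g, hgr, hg3, s, hs, hgs⟩ := hst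
  have hg1 : g ∉ Kb := fun h => hgs (hinv g h s hs)
  have hg2 : g ^ 2 ∉ Kb := fun h => hg1 (by
    have := Kb.mul_mem h h
    rwa [← pow_add, pow_succ, hg3, one_mul] at this)
  have hgi : ∀ i : ℕ, sv (g ^ i) r = r := fun i => by
    induction i with
    | zero => exact sv_one r
    | succ i ih => rw [pow_succ, sv_mul, hgr, ih]
  have hsep : ∀ i j : Fin 3, (g ^ (i : ℕ))⁻¹ * g ^ (j : ℕ) ∈ Kb → i = j := by
    intro i j h
    have h' := Kb.inv_mem h
    fin_cases i <;> fin_cases j <;> simp_all [pow_succ]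
  choose hA hAr using fun x : {x : Fin m → F // hm[x, x] = 0 ∧ x ≠ 0} =>
    exists_SU_map_isotropic hF (show 3 ≤ m by omega) hr0 x.2.2 hr x.2.1
  let cl : {x : Fin m → F // hm[x, x] = 0 ∧ x ≠ 0} × Fin 3 → ↥(Cfsg.SU m F 2) ⧸ Kb :=
    fun p => QuotientGroup.mk (hA p.1 * g ^ (p.2 : ℕ))
  have hel : ∀ p, sv (cl p).out⁻¹ p.1.1 ∈ R ∧ sv (cl p).out⁻¹ p.1.1 ≠ 0 := by
    intro p
    obtain ⟨k, hk⟩ := QuotientGroup.mk_out_eq_mul Kb (hA p.1 * g ^ (p.2 : ℕ))
    have hx : sv (hA p.1 * g ^ (p.2 : ℕ)) r = p.1.1 := by rw [sv_mul, hgi, hAr]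
    refine ⟨?_, fun h => p.1.2.2 ?_⟩
    · show sv (Quotient.out _)⁻¹ _ ∈ R
      rw [hk, _root_.mul_inv_rev, sv_mul, ← hx, sv_inv_sv]
      exact hinv _ (Kb.inv_mem k.2) r hrR
    · rw [← sv_sv_inv (cl p).out p.1.1, h]
      exact Matrix.mulVec_zero _
  have hcard : Nat.card {x : R // x ≠ 0} = Nat.card R - 1 := by
    have h2 : Nat.card R = Nat.card {x : R // x ≠ 0} + 1 := by
      rw [← Finite.card_option]
      exact Nat.card_congr (Equiv.optionSubtypeNe (0 : R)).symm
    omega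
  rw [← hcard, mul_comm, isoN, ← Nat.card_fin 3, ← Nat.card_prod, Subgroup.index, ← Nat.card_prod]
  refine Nat.card_le_card_of_injective (fun p => (cl p, (⟨⟨_, (hel p).1⟩, fun h => (hel p).2
    (congrArg Subtype.val h)⟩ : {x : R // x ≠ 0}))) ?_
  intro p p' h
  have h1 : cl p = cl p' := congrArg (fun z => z.1) h
  have h2 : sv (cl p).out⁻¹ p.1.1 = sv (cl p').out⁻¹ p'.1.1 := congrArg (fun z => z.2.1.1) h
  rw [h1] at h2
  have hx : p.1 = p'.1 := Subtype.ext (by
    rw [← sv_sv_inv (cl p').out p.1.1, h2, sv_sv_inv])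
  have h3 := QuotientGroup.eq.1 h1
  rw [hx, show (hA p'.1 * g ^ (p.2 : ℕ))⁻¹ * (hA p'.1 * g ^ (p'.2 : ℕ)) = (g ^ (p.2 : ℕ))⁻¹ * g ^ (p'.2 : ℕ) by
    group] at h3
  exact Prod.ext hx (hsep _ _ h3)

omit hTI in
/-- Every isotropic vector meets a translate of `R`, if `R` has one. -/
theorem one_iso_le (hm' : 4 ≤ m) (hrR : r ∈ R) (hr : Cfsg.hermForm m F 2 r r = 0) (hr0 : r ≠ 0) :
    isoN F m ≤ Kb.index * (Nat.card R - 1) := by
  choose hA hAr using fun x : {x : Fin m → F // hm[x, x] = 0 ∧ x ≠ 0} =>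
    exists_SU_map_isotropic hF (show 3 ≤ m by omega) hr0 x.2.2 hr x.2.1
  let cl : {x : Fin m → F // hm[x, x] = 0 ∧ x ≠ 0} → ↥(Cfsg.SU m F 2) ⧸ Kb :=
    fun p => QuotientGroup.mk (hA p)
  have hel : ∀ p, sv (cl p).out⁻¹ p.1 ∈ R ∧ sv (cl p).out⁻¹ p.1 ≠ 0 := by
    intro p
    obtain ⟨k, hk⟩ := QuotientGroup.mk_out_eq_mul Kb (hA p)
    refine ⟨?_, fun h => p.2.2 ?_⟩
    · show sv (Quotient.out _)⁻¹ _ ∈ R
      rw [hk, _root_.mul_inv_rev, sv_mul, ← hAr p, sv_inv_sv]
      exact hinv _ (Kb.inv_mem k.2) r hrR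
    · rw [← sv_sv_inv (cl p).out p.1, h]
      exact Matrix.mulVec_zero _
  have hcard : Nat.card {x : R // x ≠ 0} = Nat.card R - 1 := by
    have h2 : Nat.card R = Nat.card {x : R // x ≠ 0} + 1 := by
      rw [← Finite.card_option]
      exact Nat.card_congr (Equiv.optionSubtypeNe (0 : R)).symm
    omega
  rw [← hcard, isoN, Subgroup.index, ← Nat.card_prod]
  refine Nat.card_le_card_of_injective (fun p => (cl p, (⟨⟨_, (hel p).1⟩, fun h => (hel p).2
    (congrArg Subtype.val h)⟩ : {x : R // x ≠ 0}))) ?_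
  intro p p' h
  have h1 : cl p = cl p' := congrArg (fun z => z.1) h
  have h2 : sv (cl p).out⁻¹ p.1 = sv (cl p').out⁻¹ p'.1 := congrArg (fun z => z.2.1.1) h
  rw [h1] at h2
  exact Subtype.ext (by rw [← sv_sv_inv (cl p').out p.1, h2, sv_sv_inv])

omit hTI in
/-- A single non-isotropic vector has at least three images. -/
theorem three_le_index (hm' : 4 ≤ m) (hrR : r ∈ R) (hr0 : r ≠ 0) (honly : ∀ x ∈ R, x = 0 ∨ x = r) :
    3 ≤ Kb.index := by
  obtain ⟨a, ha, hra⟩ := exists_iso_one hF (show 2 ≤ m by omega) hr0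
  have ha0 : a ≠ 0 := fun h => by rw [h, herm_zero_right hF] at hra; exact zero_ne_one hra
  obtain ⟨b, -, hb, hab⟩ := exists_partner hF (isNondeg_top hF) trivial ha0 ha
  have hab0 : hm[a, b] ≠ 0 := by rw [hab]; exact one_ne_zero
  have hg3 := tv_mul_tv_cube hF ha hb hab0
  set g := tv hF a ha * tv hF b hb
  have hgr : sv g r ≠ r := by
    intro h
    rw [sv_mul, sv_tv, sv_tv, add_assoc, add_eq_left] at h
    have h' := congrArg (fun z => hm[z, a]) h
    have hba : hm[b, a] = 1 := by rw [herm_conj hF, hab, one_pow]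
    simp only [herm_add_left, herm_smul_left, ha, hba, mul_zero, mul_one, add_zero, herm_zero_left] at h'
    rw [h', zero_smul, zero_add, herm_add_left, hra, herm_zero_left, add_zero, one_smul] at h
    exact ha0 h
  have hfix : ∀ k ∈ Kb, sv k r = r := fun k hk =>
    (honly _ (hinv k hk r hrR)).resolve_left fun h => hr0 (by rw [← sv_inv_sv k r, h]; exact Matrix.mulVec_zero _)
  have hg1 : g ∉ Kb := fun h => hgr (hfix g h)
  have hg2 : g ^ 2 ∉ Kb := fun h => hg1 (by
    have := Kb.mul_mem h h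
    rwa [← pow_add, pow_succ, hg3, one_mul] at this)
  rw [Subgroup.index, ← Nat.card_fin 3]
  refine Nat.card_le_card_of_injective (fun i : Fin 3 => (QuotientGroup.mk (g ^ (i : ℕ)) : ↥(Cfsg.SU m F 2) ⧸ Kb)) ?_
  intro i j h
  have h1 := QuotientGroup.eq.1 h
  have h' := Kb.inv_mem h1
  fin_cases i <;> fin_cases j <;> simp_all [pow_succ]

/-- The stabiliser of a non-zero trace-isotropic group has index at least four thirds of its order. -/
theorem radical_bound (hm' : 4 ≤ m) (heven : Even m) (hR : ∃ x ∈ R, x ≠ 0) :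
    4 * Nat.card R ≤ 3 * Kb.index := by
  obtain ⟨a, ha⟩ : ∃ a, 2 ^ m = 2 * a := ⟨2 ^ (m - 1), by rw [← pow_succ']; congr 1; omega⟩
  have ha8 : 8 ≤ a := by
    have : 2 ^ 4 ≤ 2 ^ m := Nat.pow_le_pow_right (by norm_num) hm'
    omega
  have hN := isoN_even hF heven ha
  have hRsq : Nat.card R * Nat.card R ≤ (2 * a) * (2 * a) := by
    let A : AddSubgroup F :=
      { carrier := {c | c ^ 2 = c}
        zero_mem' := by simp
        add_mem' := fun {x y} hx hy => by
          have hx' : x ^ 2 = x := hx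
          have hy' : y ^ 2 = y := hy
          show (x + y) ^ 2 = x + y
          rw [add_pow_q hF, hx', hy']
        neg_mem' := fun {x} hx => by
          have hx' : x ^ 2 = x := hx
          show (-x) ^ 2 = -x
          rw [neg_pow_q hF, hx'] }
    have hA : A ≠ ⊤ := by
      intro h
      obtain ⟨w, hw⟩ := exists_omega hF
      have h1 : w ^ 2 = w := (show w ∈ A from h ▸ AddSubgroup.mem_top w)
      have : (1 : F) = 0 := by linear_combination hw - h1 - w * two_eq_zero hF
      exact one_ne_zero this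
    have h := CfsgLib.MinIndexPSp.sq_card_le (fun x y => hm[y, x]) (fun x y z => herm_add_left y z x)
      (fun x y z => herm_add_right hF z x y) (fun x c y => herm_smul_left c y x)
      (fun x hx => herm_nondeg hF x fun y => herm_eq_zero_comm hF (hx y)) A hA R
      (fun x hx y hy => hTI y hy x hx)
    rwa [Nat.card_eq_fintype_card (α := Fin m → F), Fintype.card_fun, Fintype.card_fin, hF, ← pow_mul,
      mul_comm 2 m, pow_mul, ha, sq] at h
  have hR2 : Nat.card R ≤ 2 * a := Nat.mul_self_le_mul_self_iff.1 hRsq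
  have hNn : (2 * a - 1) * (a + 1) ≤ isoN F m := by
    have : ((2 * a - 1) * (a + 1) : ℕ) = (isoN F m : ℕ) := by
      apply Nat.cast_injective (R := ℤ)
      rw [hN, Nat.cast_mul, Nat.cast_sub (by omega)]
      push_cast
      ring
    omega
  by_cases hbig : 4 < Nat.card R
  · have h := three_iso_le hF hTI hinv hm' hbig
    have h1 : 3 * ((2 * a - 1) * (a + 1)) ≤ Kb.index * (2 * a - 1) :=
      (Nat.mul_le_mul_left 3 hNn).trans (h.trans (Nat.mul_le_mul_left _ (by omega)))
    have h2 : 3 * (a + 1) ≤ Kb.index := Nat.le_of_mul_le_mul_right (c := 2 * a - 1) (by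
      calc 3 * (a + 1) * (2 * a - 1) = 3 * ((2 * a - 1) * (a + 1)) := by ring
        _ ≤ _ := h1) (by omega)
    omega
  · obtain ⟨x, hxR, hx0⟩ := hR
    by_cases hiso : ∃ y ∈ R, hm[y, y] = 0 ∧ y ≠ 0
    · obtain ⟨y, hyR, hy, hy0⟩ := hiso
      have h := one_iso_le hF hinv hm' hyR hy hy0
      have h1 : (2 * a - 1) * (a + 1) ≤ Kb.index * 3 := hNn.trans (h.trans (Nat.mul_le_mul_left _ (by omega)))
      have h2 : 15 * (a + 1) ≤ (2 * a - 1) * (a + 1) := Nat.mul_le_mul_right _ (by omega)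
      omega
    · push Not at hiso
      have honly : ∀ y ∈ R, y = 0 ∨ y = x := by
        intro y hyR
        refine or_iff_not_imp_left.2 fun hy0 => ?_
        have h1 := (herm_self_cases hF y).resolve_left fun h => hy0 (hiso y hyR h)
        have h2 := (herm_self_cases hF x).resolve_left fun h => hx0 (hiso x hxR h)
        have h3 := hTI y hyR x hxR
        rw [← herm_conj hF y x] at h3
        have h4 : y + x = 0 := hiso _ (R.add_mem hyR hxR) (by
          simp only [herm_add_left, herm_add_right hF, h1, h2]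
          linear_combination h3 + (hm[y, x] + 1) * two_eq_zero hF)
        rw [eq_neg_of_add_eq_zero_left h4]
        exact funext fun i => neg_eq hF _
      have h := three_le_index hF hinv hm' hxR hx0 honly
      have h2 : Nat.card R ≤ 2 := by
        let f : Bool → R := fun c => if c then ⟨x, hxR⟩ else 0
        have hf : Function.Surjective f := fun y => by
          rcases honly y.1 y.2 with h | h
          · exact ⟨false, Subtype.ext (by simp [f, h])⟩
          · exact ⟨true, Subtype.ext (by simp [f, h])⟩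
        have := Nat.card_le_card_of_surjective f hf
        simpa using this
      omega

end CfsgLib.MinIndexUTwo
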