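import Mathlib
import Cfsg.Agent.MinIndexUTwo.Translates
import Cfsg.Agent.MinIndexUTwo.Complement
import Cfsg.Agent.MinIndexUTwo.Lines

/-!
The least index of a proper subgroup of `SU_n(2)`, `n` divisible by six: the number of non-isotropic points.
-/

set_option autoImplicit false
set_option linter.unusedSectionVars false

open scoped Classical

namespace CfsgLib.MinIndexUTwo

open Matrix CfsgLib.Unitary CfsgLib.AutPSU CfsgLib.AutPSU.Frame CfsgLib.SchurClassical.Un CfsgLib.MinIndexPSU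

variable {F : Type*} [Field F] [Fintype F] (hF : Fintype.card F = 2 ^ 2)

include hF

theorem not_good_of_bad {k : ℕ} {K : Subgroup ↥(Cfsg.SU k F 2)} {v : Fin k → F} (h : ¬ IsGood hF K v) :
    ¬ Good hF K v := fun hg => h fun hv => hg hv 1 (one_trace hF)

theorem eq_top_of_all_good {k : ℕ} (hk : ¬ (k = 3)) {K : Subgroup ↥(Cfsg.SU k F 2)}
    (h : ∀ v, v ≠ 0 → Cfsg.hermForm k F 2 v v = 0 → IsGood hF K v) : K = ⊤ := by
  rw [eq_top_iff, ← transvGroup_eq_top hF (fun h' => hk h'.1), transvGroup, Subgroup.closure_le]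
  rintro A ⟨v, c, hv, hA⟩
  obtain ⟨c', hc', rfl, -⟩ := eq_transvSU_of_matrix_eq hF hv hA
  rcases eq_or_ne v 0 with rfl | hv0
  · rw [transvSU_eq_one hF hv hc' (Or.inr rfl)]; exact K.one_mem
  rcases eq_tv hF hv hc' with e | e <;> rw [e]
  · exact K.one_mem
  · exact h v hv0 hv hv

theorem local_step {m : ℕ} (hm : 4 ≤ m) (heven : Even m) (T : Frame F m 2)
    {K : Subgroup ↥(Cfsg.SU (m + 2) F 2)} (hbad : ¬ IsGood hF K T.e) :
    2 * 2 ^ m * (4 * 2 ^ m - 1) ≤ 3 * K.index ∨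
      ((∀ g ∈ K, g ∈ qAt T.e → g = 1) ∧ kbar hF T K = ⊤) := by
  have ha0 : ∀ z ∈ aSub hF T K, z = 0 := by
    rintro z ⟨hz, hmem⟩
    rcases (trace_zero_iff hF).1 (hcond_zero_iff.1 hz) with h | rfl
    · exact h
    · exact absurd (fun _ => (tv_e_eq hF T hz) ▸ hmem) hbad
  have h1 := le_index hF T (K := K) (by omega) (not_good_of_bad hF hbad)
  have hV : Nat.card (Fin m → F) = 2 ^ m * 2 ^ m := by
    rw [Nat.card_eq_fintype_card, Fintype.card_fun, hF, Fintype.card_fin, ← pow_mul, two_mul m, pow_add]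
  have h2 := (rbar hF T K).card_mul_index
  rw [hV] at h2
  have h4 : 2 * 2 ^ m * (4 * 2 ^ m - 1) ≤ 8 * (2 ^ m * 2 ^ m) :=
    (Nat.mul_le_mul_left _ (Nat.sub_le _ _)).trans (le_of_eq (by ring))
  by_cases hR : ∃ x ∈ rbar hF T K, x ≠ 0
  · left
    have hTI : ∀ x : Fin m → F, x ∈ rbar hF T K → ∀ y : Fin m → F, y ∈ rbar hF T K →
        Cfsg.hermForm m F 2 x y ^ 2 = Cfsg.hermForm m F 2 x y := by
      intro x hx y hy
      have h := ha0 _ (comm_mem_aSub hF T hx hy)
      rw [herm_conj hF x y, sub_eq_zero] at h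
      exact h.symm
    have h3 := radical_bound hF hTI (fun k hk x hx => kbar_rbar hF T hk hx) hm heven hR
    calc _ ≤ 8 * (2 ^ m * 2 ^ m) := h4
      _ = 2 * ((4 * Nat.card (rbar hF T K)) * (rbar hF T K).index) := by rw [← h2]; ring
      _ ≤ 2 * ((3 * (kbar hF T K).index) * (rbar hF T K).index) :=
        Nat.mul_le_mul_left _ (Nat.mul_le_mul_right _ h3)
      _ = 3 * (2 * ((kbar hF T K).index * (rbar hF T K).index)) := by ring
      _ ≤ _ := Nat.mul_le_mul_left _ h1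
  · push Not at hR
    have hb : rbar hF T K = ⊥ := (AddSubgroup.eq_bot_iff_forall _).2 hR
    rw [hb, AddSubgroup.card_bot, one_mul] at h2
    rcases Nat.lt_or_ge (kbar hF T K).index 2 with hk | hk
    · right
      have hk1 : (kbar hF T K).index = 1 := by
        have := Subgroup.index_ne_zero_of_finite (H := kbar hF T K); omega
      refine ⟨fun g hg hgq => ?_, Subgroup.index_eq_one.1 hk1⟩
      rw [← qsub_eq_qAt hF T] at hgq
      obtain ⟨w, c, hc, rfl⟩ := hgq
      obtain rfl := hR w ⟨c, hc, hg⟩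
      exact heis_zero hF T hc (ha0 c ⟨hc, hg⟩)
    · left
      rw [hb, h2] at h1
      calc _ ≤ 8 * (2 ^ m * 2 ^ m) := h4
        _ ≤ 3 * (2 * (2 * (2 ^ m * 2 ^ m))) := by omega
        _ ≤ 3 * K.index := Nat.mul_le_mul_left _
          ((Nat.mul_le_mul_left _ (Nat.mul_le_mul_right _ hk)).trans h1)

/-- A proper subgroup has index at least the number of non-isotropic points. -/
theorem index_bound {m : ℕ} (hm : 4 ≤ m) (heven : Even m) (hm3 : m % 3 = 1)
    {K : Subgroup ↥(Cfsg.SU (m + 2) F 2)} (hK : K ≠ ⊤) :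
    2 * 2 ^ m * (4 * 2 ^ m - 1) ≤ 3 * K.index := by
  by_contra hlt
  obtain ⟨T⟩ := exists_frame (m := m) hF
  have hreg : ∀ u : Fin (m + 2) → F, u ≠ 0 → Cfsg.hermForm (m + 2) F 2 u u = 0 → ¬ IsGood hF K u →
      ∀ A : ↥(Cfsg.SU (m + 2) F 2), sv A T.e = u →
      (¬ IsGood hF (conjSub A⁻¹ K) T.e) ∧ (∀ g ∈ conjSub A⁻¹ K, g ∈ qAt T.e → g = 1) ∧
        kbar hF T (conjSub A⁻¹ K) = ⊤ := by
    intro u hu0 hu hb A hA
    have hb' : ¬ IsGood hF (conjSub A⁻¹ K) T.e := fun h => hb (by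
      have h' := (isGood_conjSub hF A⁻¹ T.e).1 h
      rwa [inv_inv, hA] at h')
    refine ⟨hb', (local_step hF hm heven T hb').resolve_left ?_⟩
    rwa [index_conjSub]
  have htriv : TrivRad hF K := by
    intro v hv0 hv hb g hg hgq
    obtain ⟨A, hA⟩ := exists_SU_map_isotropic hF (by omega) (T.e_ne_zero hF) hv0 T.he hv
    obtain ⟨-, h1, -⟩ := hreg v hv0 hv hb A hA
    have h2 := conj_mem_qAt A⁻¹ hgq
    rw [← hA, sv_inv_sv] at h2
    have h3 := h1 _ (mem_conjSub.2 (by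
      rw [show A⁻¹⁻¹ * (A⁻¹ * g * A⁻¹⁻¹) * A⁻¹ = g by group]; exact hg)) h2
    rwa [inv_inv, mul_assoc, inv_mul_eq_one, eq_comm, mul_eq_right] at h3
  have hline : LineSet (IsGood hF K) := by
    refine ⟨?_, ?_, ?_⟩
    · intro x hx l hl h hv
      rw [tv_smul hF hx hl hv]
      exact h hx
    · intro u w hu0 hu hw hwu hind hb
      obtain ⟨A, hA⟩ := exists_SU_map_isotropic hF (by omega) (T.e_ne_zero hF) hu0 T.he hu
      obtain ⟨hb', h1, h2⟩ := hreg u hu0 hu hb A hA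
      subst hA
      obtain ⟨z, rfl⟩ : ∃ z, w = sv A z := ⟨sv A⁻¹ w, (sv_sv_inv A w).symm⟩
      rw [sv_herm] at hw hwu
      have hz := T.eq_of_perp_e hF hwu
      have hpz : Cfsg.hermForm m F 2 (proj z) (proj z) = 0 := by
        rw [T.herm_coords hF, hwu] at hw
        simpa using hw
      have hp0 : proj z ≠ 0 := fun h => hind _ (by rw [hz, h, eta_zero, add_zero, sv_smul])
      obtain ⟨c, hc⟩ := exists_good_on_line hF T hm hm3 (trivRad_conjSub hF htriv A⁻¹) hb' h2 hpz hp0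
      have h := (isGood_conjSub hF A⁻¹ _).1 hc
      rw [inv_inv] at h
      set d := Cfsg.hermForm (m + 2) F 2 z T.f
      refine ⟨c - d, ?_⟩
      rw [← sv_smul, ← sv_add]
      convert h using 2
      conv_lhs => rw [hz]
      module
    · intro u w hu0 hu hw hwu hind hb c c' hc hc'
      obtain ⟨A, hA⟩ := exists_SU_map_isotropic hF (by omega) (T.e_ne_zero hF) hu0 T.he hu
      obtain ⟨hb', h1, -⟩ := hreg u hu0 hu hb A hA
      subst hA
      obtain ⟨z, rfl⟩ : ∃ z, w = sv A z := ⟨sv A⁻¹ w, (sv_sv_inv A w).symm⟩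
      rw [sv_herm] at hw hwu
      set d := Cfsg.hermForm (m + 2) F 2 z T.f with hd
      have hz : z = d • T.e + eta (proj z) := T.eq_of_perp_e hF hwu
      have hpz : Cfsg.hermForm m F 2 (proj z) (proj z) = 0 := by
        rw [T.herm_coords hF, hwu] at hw
        simpa using hw
      have hiso : ∀ l : F, Cfsg.hermForm (m + 2) F 2 (eta (proj z) + l • T.e) (eta (proj z) + l • T.e) = 0 := fun l => by
        simp only [herm_add_left, herm_add_right hF, herm_smul_left, herm_smul_right, herm_eta hF, hpz, T.he, T.ew,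
          T.we hF, mul_zero, add_zero]
      have hg : ∀ l : F, IsGood hF K (sv A z + l • sv A T.e) →
          IsGood hF (conjSub A⁻¹ K) (eta (proj z) + (d + l) • T.e) := fun l h => by
        rw [isGood_conjSub, inv_inv]
        convert h using 1
        rw [← sv_smul, ← sv_add]
        congr 1
        conv_rhs => rw [hz]
        module
      obtain ⟨hc4, e4⟩ := tv_mul_tv_heis hF T hpz (d + c) (d + c') (hiso _) (hiso _)
      have h4 := (conjSub A⁻¹ K).mul_mem (hg c hc (hiso _)) (hg c' hc' (hiso _))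
      rw [e4] at h4
      have h5 := h1 _ h4 (qsub_eq_qAt hF T ▸ T.heis_mem_qsub hF hc4)
      have h6 := congrArg (fun g => proj (sv g T.f)) h5
      simp only [T.sv_heis hF, sv_one, T.heisLin_f hF, proj_add, proj_smul, proj_eta, T.proj_f hF, T.proj_e hF,
        smul_zero, add_zero, zero_add] at h6
      have hp0 : proj z ≠ 0 := fun h => hind d (by rw [hz, h, eta_zero, add_zero, sv_smul])
      have h7 := eq_zero_of_pow_eq_zero ((smul_eq_zero.1 h6).resolve_right hp0)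
      linear_combination h7 - (d + c') * two_eq_zero hF
  obtain ⟨i, rfl⟩ : ∃ i, m = 2 * i := ⟨m / 2, by obtain ⟨j, hj⟩ := heven; omega⟩
  have hZ := line_set_card hF i _ hline
  obtain ⟨u, hu0, hu, hb⟩ : ∃ u : Fin (2 * i + 2) → F, u ≠ 0 ∧ Cfsg.hermForm (2 * i + 2) F 2 u u = 0 ∧ ¬ IsGood hF K u := by
    by_contra h
    push Not at h
    exact hK (eq_top_of_all_good hF (by omega) h)
  obtain ⟨A, hA⟩ := exists_SU_map_isotropic hF (by omega) (T.e_ne_zero hF) hu0 T.he hu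
  obtain ⟨hb', h1, h2⟩ := hreg u hu0 hu hb A hA
  set K1 := conjSub A⁻¹ K with hK1
  -- the orbit of the point and its stabiliser
  let O := {x : Fin (2 * i + 2) → F // (Cfsg.hermForm (2 * i + 2) F 2 x x = 0 ∧ x ≠ 0) ∧ ¬ IsGood hF K1 x}
  have hconj : ∀ k ∈ K1, ∀ x : Fin (2 * i + 2) → F, IsGood hF K1 (sv k x) → IsGood hF K1 x := fun k hk x h hv => by
    have h' := h (herm_sv_self_eq_zero k hv)
    rw [← tv_conj hF k x hv] at h'
    simpa [mul_assoc] using K1.mul_mem (K1.mul_mem (K1.inv_mem hk) h') hk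
  have hcardK : Nat.card K1 ≤ Nat.card O * Nat.card (K1.subgroupOf (vecStab F (2 * i) 2 T.e)) := by
    let f : K1 → O := fun k => ⟨sv (k : ↥(Cfsg.SU (2 * i + 2) F 2)) T.e,
      ⟨herm_sv_self_eq_zero _ T.he, fun h => T.e_ne_zero hF (by
        rw [← sv_inv_sv (k : ↥(Cfsg.SU (2 * i + 2) F 2)) T.e, h]; exact Matrix.mulVec_zero _)⟩,
      fun h => hb' (hconj _ k.2 _ h)⟩
    let r : K1 → K1 := fun k => Function.invFun f (f k)
    have hr : ∀ k, f (r k) = f k := fun k => Function.invFun_eq (f := f) ⟨k, rfl⟩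
    have hfix : ∀ k, ((r k : K1) : ↥(Cfsg.SU (2 * i + 2) F 2))⁻¹ * k ∈ vecStab F (2 * i) 2 T.e := fun k => by
      rw [AutPSU.mem_vecStab, sv_mul]
      conv_lhs => arg 2; rw [← show sv (r k : ↥(Cfsg.SU (2 * i + 2) F 2)) T.e = sv (k : ↥(Cfsg.SU (2 * i + 2) F 2)) T.e from
        congrArg Subtype.val (hr k)]
      rw [sv_inv_sv]
    rw [← Nat.card_prod]
    refine Nat.card_le_card_of_injective (fun k => (f k, (⟨⟨_, hfix k⟩, Subgroup.mem_subgroupOf.2
      (K1.mul_mem (K1.inv_mem (r k).2) k.2)⟩ : K1.subgroupOf (vecStab F (2 * i) 2 T.e)))) ?_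
    intro k k' h
    have e1 : f k = f k' := congrArg (fun p => p.1) h
    have e2 := congrArg (fun p => p.2.1.1) h
    have e3 : r k = r k' := congrArg (Function.invFun f) e1
    simp only [e3, mul_right_inj] at e2
    exact Subtype.ext e2
  have hrb : rbar hF T K1 = ⊥ := (AddSubgroup.eq_bot_iff_forall _).2 fun w ⟨c, hc, hmem⟩ =>
    (T.heis_inj hF (hc' := hcond_zero_iff.2 (by rw [zero_add, zero_pow two_ne_zero]))
      ((h1 _ hmem (qsub_eq_qAt hF T ▸ T.heis_mem_qsub hF hc)).trans (heis_zero hF T _ rfl).symm)).1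
  have hab : aSub hF T K1 = ⊥ := (AddSubgroup.eq_bot_iff_forall _).2 fun z ⟨hz, hmem⟩ =>
    (T.heis_inj hF (hc' := hcond_zero_iff.2 (by rw [zero_add, zero_pow two_ne_zero]))
      ((h1 _ hmem (qsub_eq_qAt hF T ▸ T.heis_mem_qsub hF hz)).trans (heis_zero hF T _ rfl).symm)).2
  have hstab := card_inf_vecStab_le hF T (K := K1)
  rw [hrb, hab, AddSubgroup.card_bot, AddSubgroup.card_bot, mul_one, mul_one, h2, Subgroup.card_top] at hstab
  have hG := Subgroup.card_mul_index K1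
  have hG' := Subgroup.card_mul_index (vecStab F (2 * i) 2 T.e)
  rw [hK1, index_conjSub, ← hK1] at hG
  have hidx : (vecStab F (2 * i) 2 T.e).index = isoN F (2 * i + 2) := by
    have h := index_vecStab hF (by omega) (T.e_ne_zero hF) T.he
    rw [← isoN_add_one hF] at h
    omega
  have hO : Nat.card O + isoN F (2 * i + 1) ≤ isoN F (2 * i + 2) := by
    rw [← card_not_add hF (IsGood hF K1)]
    refine Nat.add_le_add_left (hZ.trans (le_of_eq ?_)) _
    have hv : ∀ x, sv A⁻¹ x = 0 ↔ x = 0 := fun x =>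
      ⟨fun h => by rw [← sv_sv_inv A x, h]; exact Matrix.mulVec_zero _, fun h => h ▸ Matrix.mulVec_zero _⟩
    exact Nat.card_congr
      { toFun := fun x => ⟨sv A⁻¹ x.1, ⟨herm_sv_self_eq_zero _ x.2.1.1, fun h => x.2.1.2 ((hv _).1 h)⟩, by
          rw [hK1, isGood_conjSub, inv_inv, sv_sv_inv]; exact x.2.2⟩
        invFun := fun x => ⟨sv A x.1, ⟨herm_sv_self_eq_zero _ x.2.1.1, fun h => x.2.1.2 (by
          rw [← sv_inv_sv A x.1, h]; exact Matrix.mulVec_zero _)⟩, by
          have := (isGood_conjSub hF A⁻¹ x.1).1 x.2.2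
          rwa [inv_inv] at this⟩
        left_inv := fun x => Subtype.ext (sv_sv_inv A x.1)
        right_inv := fun x => Subtype.ext (sv_inv_sv A x.1) }
  have hP := card_vecStab_ge hF T
  have hV : 2 ^ (2 * (2 * i)) = 2 ^ (2 * i) * 2 ^ (2 * i) := by rw [two_mul (2 * i), pow_add]
  rw [hV] at hP
  set b := 2 ^ (2 * i) with hb2
  set N := isoN F (2 * i + 2)
  have key : 2 * (b * b) * N * Nat.card (↥(Cfsg.SU (2 * i) F 2)) ≤
      K.index * (N - isoN F (2 * i + 1)) * Nat.card (↥(Cfsg.SU (2 * i) F 2)) := by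
    calc _ = 2 * (b * b * Nat.card (↥(Cfsg.SU (2 * i) F 2))) * N := by ring
      _ ≤ Nat.card (vecStab F (2 * i) 2 T.e) * N := Nat.mul_le_mul_right _ hP
      _ = Nat.card K1 * K.index := by rw [← hidx, hG', hG]
      _ ≤ (Nat.card O * Nat.card (↥(Cfsg.SU (2 * i) F 2))) * K.index :=
        Nat.mul_le_mul_right _ (hcardK.trans (Nat.mul_le_mul_left _ hstab))
      _ ≤ ((N - isoN F (2 * i + 1)) * Nat.card (↥(Cfsg.SU (2 * i) F 2))) * K.index :=
        Nat.mul_le_mul_right _ (Nat.mul_le_mul_right _ (by omega))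
      _ = _ := by ring
  have key' := Nat.le_of_mul_le_mul_right key Nat.card_pos
  have hb1 : 2 ≤ b := Nat.le_self_pow (by omega) 2
  obtain ⟨a, ha⟩ : ∃ a, b = 2 * a := ⟨2 ^ (2 * i - 1), by rw [hb2, ← pow_succ']; congr 1; omega⟩
  have eN := isoN_even hF (k := 2 * i + 2) (a := 2 * b) ⟨i + 1, by omega⟩ (by rw [hb2, pow_add]; ring)
  have eM := isoN_odd hF (k := 2 * i + 1) (a := b) ⟨i, rfl⟩ (by rw [hb2, pow_succ]; ring)
  apply hlt
  apply Nat.cast_le (α := ℤ).1
  have key2 : ((2 * (b * b) * N : ℕ) : ℤ) ≤ ((K.index * (N - isoN F (2 * i + 1)) : ℕ) : ℤ) := by exact_mod_cast key'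
  push_cast [show isoN F (2 * i + 1) ≤ N by omega] at key2
  rw [eN, eM] at key2
  push_cast [show 1 ≤ 4 * b by omega] at key2 ⊢
  have hpos : (0 : ℤ) < (b : ℤ) * (2 * b + 1) := by positivity
  refine le_of_mul_le_mul_right ?_ hpos
  nlinarith [key2]

/-- The stabiliser of a line. -/
def lineStab {n : ℕ} (p : Fin n → F) : Subgroup ↥(Cfsg.SU n F 2) where
  carrier := {g | ∃ c : F, c ≠ 0 ∧ sv g p = c • p}
  one_mem' := ⟨1, one_ne_zero, by rw [sv_one, one_smul]⟩
  mul_mem' := fun {g g'} ⟨c, hc, e⟩ ⟨c', hc', e'⟩ =>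
    ⟨c' * c, mul_ne_zero hc' hc, by rw [sv_mul, e', sv_smul, e, smul_smul]⟩
  inv_mem' := fun {g} ⟨c, hc, e⟩ => ⟨c⁻¹, inv_ne_zero hc, by
    have h := congrArg (sv g⁻¹) e
    rw [sv_inv_sv, sv_smul] at h
    conv_rhs => arg 2; rw [h]
    rw [smul_smul, inv_mul_cancel₀ hc, one_smul]⟩

/-- The index of the stabiliser of a non-isotropic line. -/
theorem index_lineStab {n : ℕ} (hn : 2 ≤ n) {p : Fin n → F} (hp : Cfsg.hermForm n F 2 p p = 1) :
    (lineStab p).index * 3 = normCount n 2 (1 : F) := by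
  rw [← show Nat.card {c : F // c ≠ 0} = 3 by
    rw [Nat.card_eq_fintype_card, Fintype.card_subtype_compl, Fintype.card_subtype_eq, hF]; rfl]
  rw [Subgroup.index, normCount, ← Nat.card_prod]
  have hval : ∀ (g : ↥(Cfsg.SU n F 2)) (c : F), c ≠ 0 → Cfsg.hermForm n F 2 (c • sv g p) (c • sv g p) = 1 := fun g c hc => by
    rw [herm_self_smul, sv_herm, hp, mul_one]; exact cube_eq_one hF hc
  refine Nat.card_congr (Equiv.ofBijective (fun q : (↥(Cfsg.SU n F 2) ⧸ lineStab p) × {c : F // c ≠ 0} =>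
    (⟨q.2.1 • sv q.1.out p, hval _ _ q.2.2⟩ : {v : Fin n → F // Cfsg.hermForm n F 2 v v = 1})) ⟨?_, ?_⟩)
  · rintro ⟨g, c, hc⟩ ⟨g', c', hc'⟩ h
    have h' : c • sv g.out p = c' • sv g'.out p := congrArg Subtype.val h
    have hgg : g = g' := by
      rw [← QuotientGroup.out_eq' g, ← QuotientGroup.out_eq' g', QuotientGroup.eq]
      refine ⟨c * c'⁻¹, mul_ne_zero hc (inv_ne_zero hc'), ?_⟩
      have h'' := congrArg (sv g.out⁻¹) h'
      simp only [sv_smul, sv_inv_sv] at h''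
      rw [sv_mul, mul_comm, ← smul_smul, h'', smul_smul, inv_mul_cancel₀ hc', one_smul]
    subst hgg
    have hp0 : sv g.out p ≠ 0 := fun h0 => one_ne_zero (α := F) (by
      rw [← hp, ← sv_herm g.out, h0, herm_zero_left])
    simp only [Prod.mk.injEq, true_and]
    exact Subtype.ext (smul_left_injective F hp0 h')
  · rintro ⟨v, hv⟩
    have hvne : Orthonorm 2 (fun _ : Fin 1 => v) := fun i j => by fin_cases i; fin_cases j; simp [hv]
    have hpne : Orthonorm 2 (fun _ : Fin 1 => p) := fun i j => by fin_cases i; fin_cases j; simp [hp]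
    obtain ⟨g, hg⟩ := exists_SU_map_orthonorm hF hpne hvne (by omega)
    obtain ⟨⟨k, c, hc, hk⟩, hout⟩ := QuotientGroup.mk_out_eq_mul (lineStab p) g
    refine ⟨(QuotientGroup.mk g, ⟨c⁻¹, inv_ne_zero hc⟩), Subtype.ext ?_⟩
    show c⁻¹ • sv (Quotient.out _) p = v
    rw [hout, sv_mul, hk, sv_smul, hg 0, smul_smul, inv_mul_cancel₀ hc, one_smul]

theorem center_le_lineStab {n : ℕ} (hn : 2 ≤ n) (p : Fin n → F) :
    Subgroup.center ↥(Cfsg.SU n F 2) ≤ lineStab p := by
  intro z hz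
  obtain ⟨c, hc⟩ := (mem_center_SU_iff hF hn z).1 hz
  have : Nonempty (Fin n) := ⟨⟨0, by omega⟩⟩
  have hc0 : c ≠ 0 := fun h => by
    have := z.1.2
    rw [hc, h, map_zero, Matrix.det_zero] at this
    exact zero_ne_one this
  refine ⟨c, hc0, ?_⟩
  show ((z : Matrix.SpecialLinearGroup (Fin n) F) : Matrix (Fin n) (Fin n) F) *ᵥ p = _
  rw [hc, Matrix.scalar_apply, ← Matrix.smul_one_eq_diagonal, Matrix.smul_mulVec, Matrix.one_mulVec]

theorem psu_two_min_index {n : ℕ} (hn : 6 ∣ n) (hpos : 6 ≤ n) :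
    (∀ H : Subgroup (Cfsg.PSU n F 2), H ≠ ⊤ → 2 ^ (n - 1) * (2 ^ n - 1) / 3 ≤ H.index) ∧
      ∃ H : Subgroup (Cfsg.PSU n F 2), H.index = 2 ^ (n - 1) * (2 ^ n - 1) / 3 := by
  obtain ⟨m, rfl⟩ : ∃ m, n = m + 2 := ⟨n - 2, by omega⟩
  have hsurj := QuotientGroup.mk'_surjective (Subgroup.center ↥(Cfsg.SU (m + 2) F 2))
  refine ⟨fun H hH => ?_, ?_⟩
  · rw [← Subgroup.index_comap_of_surjective H hsurj]
    have h := index_bound hF (K := H.comap (QuotientGroup.mk' _)) (show 4 ≤ m by omega)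
      (show Even m from ⟨m / 2, by omega⟩) (by omega) fun h => hH (Subgroup.comap_injective hsurj (by
        rw [h, Subgroup.comap_top]))
    refine Nat.div_le_of_le_mul (le_trans (le_of_eq ?_) h)
    rw [show m + 2 - 1 = m + 1 by omega, pow_succ, pow_add]
    ring_nf
  · set p : Fin (m + 2) → F := Pi.single 0 1 with hp
    have hpp : Cfsg.hermForm (m + 2) F 2 p p = 1 := by simp [hp, herm_single_single hF]
    refine ⟨(lineStab p).map (QuotientGroup.mk' _), ?_⟩
    rw [Subgroup.index_map_eq _ hsurj (by rw [QuotientGroup.ker_mk']; exact center_le_lineStab hF (by omega) p)]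
    have h := index_lineStab hF (by omega) hpp
    rw [normCount_one_eq hF, if_pos ⟨m / 2 + 1, by omega⟩] at h
    rw [← h, Nat.mul_div_cancel _ (by norm_num)]

end CfsgLib.MinIndexUTwo
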